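import Cfsg.Agent.FGS4.FrobeniusFPF
import Mathlib.GroupTheory.FiniteAbelian.Basic
import Mathlib.LinearAlgebra.Dimension.Finrank
import Mathlib.LinearAlgebra.FreeModule.PID
import Mathlib.Algebra.CharP.Lemmas
import Mathlib.Data.Nat.Prime.Infinite

set_option autoImplicit false

namespace Cfsg.Agent.FGS4

variable {D : Type*} [DivisionRing D] (H : Subgroup Dˣ)

/-- The additive subgroup spanned by a subgroup of the units. -/
def unitSpan : AddSubgroup D := AddSubgroup.closure (Units.val '' (H : Set Dˣ))

theorem mul_mem_unitSpan {h : Dˣ} (hh : h ∈ H) {v : D} (hv : v ∈ unitSpan H) :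
    (h : D) * v ∈ unitSpan H := by
  unfold unitSpan at *
  induction hv using AddSubgroup.closure_induction with
  | mem x hx =>
    obtain ⟨u, hu, rfl⟩ := hx
    exact AddSubgroup.subset_closure ⟨h * u, H.mul_mem hh hu, by simp⟩
  | zero => simp
  | add x y _ _ hx hy => rw [mul_add]; exact add_mem hx hy
  | neg x _ hx => rw [mul_neg]; exact neg_mem hx

/-- Left multiplication by an element of `H` on the span. -/
def spanMul (h : H) : unitSpan H →+ unitSpan H where
  toFun v := ⟨((h : Dˣ) : D) * v, mul_mem_unitSpan H h.2 v.2⟩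
  map_zero' := Subtype.ext (by simp)
  map_add' v w := Subtype.ext (by simp [mul_add])

theorem one_mem_unitSpan : (1 : D) ∈ unitSpan H :=
  AddSubgroup.subset_closure ⟨1, H.one_mem, Units.val_one⟩

theorem fg_unitSpan [Finite H] : AddGroup.FG (unitSpan H) :=
  (AddGroup.fg_iff_addSubgroup_fg _).mpr
    ((AddSubgroup.fg_iff _).mpr ⟨_, rfl, (Set.toFinite (H : Set Dˣ)).image _⟩)

theorem zpow_coe_sum_eq_zero (h : H) (hh : h ≠ 1) :
    ∑ i ∈ Finset.range (orderOf h), ((h : Dˣ) : D) ^ i = 0 := by
  have hne : ((h : Dˣ) : D) - 1 ≠ 0 := by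
    intro h0
    exact hh (Subtype.ext (Units.ext (sub_eq_zero.mp h0)))
  have := geom_sum_mul ((h : Dˣ) : D) (orderOf h)
  have hpow : ((h : Dˣ) : D) ^ orderOf h = 1 := by
    rw [← Units.val_pow_eq_pow_val, ← SubgroupClass.coe_pow, pow_orderOf_eq_one]
    simp
  rw [hpow, sub_self] at this
  exact (mul_eq_zero.mp this).resolve_right hne

/-- Every nontrivial finite subgroup of the units of a division ring is a Frobenius complement. -/
theorem exists_complement_of_units [Finite H] (hH : H ≠ ⊥) :
    ∃ (L : Type) (_ : Group L) (_ : Finite L) (C : Subgroup L),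
      Cfsg.IsFrobeniusComplement C ∧ Nonempty (H ≃* C) := by
  have : Nontrivial H := (Subgroup.nontrivial_iff_ne_bot H).mpr hH
  have hfg := fg_unitSpan H
  have : Module.Finite ℤ (unitSpan H) := Module.Finite.iff_addGroup_fg.mpr hfg
  obtain hc | ⟨p, hp, hcp⟩ := CharP.exists' D
  · -- characteristic zero
    obtain ⟨r, hr, hrp⟩ := Nat.exists_infinite_primes (Nat.card H + 1)
    have : Fact r.Prime := ⟨hrp⟩
    let S : AddSubgroup (unitSpan H) := (nsmulAddMonoidHom r : unitSpan H →+ unitSpan H).range
    have hS : ∀ h : H, ∀ x ∈ S, spanMul H h x ∈ S := by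
      rintro h x ⟨w, rfl⟩
      exact ⟨spanMul H h w, (map_nsmul (spanMul H h) r w).symm⟩
    let ρ : H → unitSpan H ⧸ S → unitSpan H ⧸ S := fun h =>
      QuotientAddGroup.map S S (spanMul H h) (hS h)
    have : Finite (unitSpan H ⧸ S) := by
      have : AddGroup.FG (unitSpan H ⧸ S) := QuotientAddGroup.fg S
      refine AddCommGroup.finite_of_fg_torsion _ (fun x => ?_)
      rw [isOfFinAddOrder_iff_nsmul_eq_zero]
      refine ⟨r, hrp.pos, ?_⟩
      induction x using QuotientAddGroup.induction_on with
      | H v => rw [← QuotientAddGroup.mk_nsmul, QuotientAddGroup.eq_zero_iff]; exact ⟨v, rfl⟩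
    have : Nontrivial (unitSpan H ⧸ S) := by
      rw [← not_subsingleton_iff_nontrivial]
      intro hsub
      have : Module.IsTorsionFree ℤ (unitSpan H) := inferInstance
      have : Module.Free ℤ (unitSpan H) := inferInstance
      let b := Module.Free.chooseBasis ℤ (unitSpan H)
      have hnt : Nontrivial (unitSpan H) :=
        ⟨⟨⟨1, one_mem_unitSpan H⟩, 0, fun h => one_ne_zero (congrArg Subtype.val h)⟩⟩
      obtain ⟨i⟩ := b.index_nonempty
      have : b i ∈ S := (QuotientAddGroup.eq_zero_iff _).mp (Subsingleton.elim _ _)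
      obtain ⟨w, hw⟩ := this
      have hw' := congrArg (fun v => b.repr v i) hw
      simp at hw'
      have hd : (r : ℤ) ∣ 1 := Dvd.intro _ hw'
      have := Int.natCast_dvd_natCast.mp (hd.trans (by simp : (1 : ℤ) ∣ ((1 : ℕ) : ℤ)))
      exact hrp.ne_one (Nat.dvd_one.mp this)
    refine exists_complement_of_fpf_add ρ ?_ ?_ (fun a x y => map_add _ x y) ?_
    · intro x
      induction x using QuotientAddGroup.induction_on with
      | H v => exact congrArg _ (Subtype.ext (one_mul (v : D)))
    · intro a b x
      induction x using QuotientAddGroup.induction_on with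
      | H v => exact congrArg _ (Subtype.ext (mul_assoc _ _ (v : D)))
    · intro h hh x hx
      have h1 : ∀ i : ℕ, (ρ h)^[i] x = x := fun i => Function.iterate_fixed hx i
      induction x using QuotientAddGroup.induction_on with
      | H v =>
        have h2 : ∀ i : ℕ, (ρ h)^[i] (v : unitSpan H ⧸ S) =
            (((spanMul H h))^[i] v : unitSpan H) := by
          intro i
          induction i with
          | zero => rfl
          | succ i ih => rw [Function.iterate_succ_apply', Function.iterate_succ_apply', ih]; rfl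
        have h3 : ∀ i : ℕ, (((spanMul H h))^[i] v : unitSpan H).val =
            ((h : Dˣ) : D) ^ i * (v : D) := by
          intro i
          induction i with
          | zero => simp
          | succ i ih =>
            rw [Function.iterate_succ_apply', pow_succ', mul_assoc, ← ih]; rfl
        have h4 : ∑ i ∈ Finset.range (orderOf h), ((spanMul H h))^[i] v = 0 := by
          apply Subtype.ext
          rw [AddSubgroup.val_finsetSum]
          simp only [h3, ← Finset.sum_mul, zpow_coe_sum_eq_zero H h hh, zero_mul]
          rfl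
        have h5 : (orderOf h) • (v : unitSpan H ⧸ S) = 0 := by
          calc (orderOf h) • (v : unitSpan H ⧸ S)
              = ∑ i ∈ Finset.range (orderOf h),
                  ((((spanMul H h))^[i] v : unitSpan H) : unitSpan H ⧸ S) := by
                simp [← h2, h1]
            _ = 0 := (map_sum (QuotientAddGroup.mk' S) _ _).symm.trans (by rw [h4, map_zero])
        have h6 : r • (v : unitSpan H ⧸ S) = 0 := by
          rw [← QuotientAddGroup.mk_nsmul, QuotientAddGroup.eq_zero_iff]; exact ⟨v, rfl⟩
        have hco : Nat.Coprime (orderOf h) r := by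
          refine (hrp.coprime_iff_not_dvd.mpr fun hd => ?_).symm
          have := Nat.le_of_dvd (orderOf_pos h) hd
          have := Nat.le_of_dvd Nat.card_pos (orderOf_dvd_natCard h)
          omega
        rw [← AddMonoid.addOrderOf_eq_one_iff]
        exact Nat.eq_one_of_dvd_coprimes hco (addOrderOf_dvd_of_nsmul_eq_zero h5)
          (addOrderOf_dvd_of_nsmul_eq_zero h6)
  · -- positive characteristic
    have : Finite (unitSpan H) := by
      refine AddCommGroup.finite_of_fg_torsion _ fun x => ?_
      rw [isOfFinAddOrder_iff_nsmul_eq_zero]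
      exact ⟨p, hp.out.pos, Subtype.ext (by simp [nsmul_eq_mul, CharP.cast_eq_zero])⟩
    have : Nontrivial (unitSpan H) :=
      ⟨⟨⟨1, one_mem_unitSpan H⟩, 0, fun h => one_ne_zero (congrArg Subtype.val h)⟩⟩
    refine exists_complement_of_fpf_add (fun h v => spanMul H h v)
      (fun v => Subtype.ext (one_mul (v : D))) (fun a b v => Subtype.ext (mul_assoc _ _ (v : D)))
      (fun a x y => map_add _ x y) fun h hh v hv => ?_
    by_contra hv0
    have h1 : ((h : Dˣ) : D) * (v : D) = v := congrArg Subtype.val hv
    exact hh (Subtype.ext (Units.ext ((mul_eq_right₀ fun h0 => hv0 (Subtype.ext h0)).mp h1)))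

end Cfsg.Agent.FGS4
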