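import Cfsg.Agent.FGS4.ExtraTwo
import Cfsg.Prelude.Def_CaseTheorems

/-! # The 2-rank of extraspecial 2-groups -/

set_option linter.style.haveILetI false

namespace Cfsg.Agent.FGS4.ExtraTwoRank

open Cfsg.Agent.S5396
open Cfsg.Agent.FGS4.ExtraTwo

/-- The rank of the model. -/
def rk (b : Bool) (n : ℕ) : ℕ := if b then n else n + 1

theorem prankLE_model (b : Bool) (n : ℕ) (hn : 1 ≤ n) (k : ℕ) :
    Cfsg.PRankLE 2 k (Ext (sType b n)) ↔ rk b n ≤ k := by
  classical
  have hc : ((Finset.univ.filter fun i => sType b n i = false).card + 1) = rk b n := by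
    cases b
    · simp [rk, sType]
    · obtain ⟨m, rfl⟩ : ∃ m, n = m + 1 := ⟨n - 1, by omega⟩
      rw [show (Finset.univ.filter fun i => sType true (m + 1) i = false) =
          Finset.univ.erase (Fin.last m) by
        ext i; simp [sType, Fin.ext_iff],
        Finset.card_erase_of_mem (Finset.mem_univ _), Finset.card_univ, Fintype.card_fin]
      simp [rk]
  constructor
  · intro h
    have h1 := h (coordSub (sType b n)) coordSub_elem.1 coordSub_elem.2
    rw [coordSub_card, hc] at h1
    exact (Nat.pow_le_pow_iff_right (by norm_num)).1 h1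
  · intro hk A hA hA2
    haveI := Fact.mk Nat.prime_two
    obtain ⟨h1, h2⟩ := card_elem_le hn (A := A) ⟨hA, hA2⟩
    obtain ⟨j, hj⟩ := IsPGroup.iff_card.1 ((IsPGroup.of_card (card_ext (s := sType b n))).to_subgroup A)
    refine le_trans ?_ (Nat.pow_le_pow_right two_pos hk)
    cases b
    · simpa [rk] using h1
    · rw [hj] at h1 h2 ⊢
      have hj1 : j ≤ n + 1 := (Nat.pow_le_pow_iff_right (by norm_num)).1 h1
      refine Nat.pow_le_pow_right two_pos ?_
      simp only [rk, if_true]
      by_contra hlt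
      have h3 := h2 (by rw [show j = n + 1 by omega])
      rw [sum_sgn] at h3
      obtain ⟨m, rfl⟩ : ∃ m, n = m + 1 := ⟨n - 1, by omega⟩
      rw [Fin.prod_univ_castSucc] at h3
      have hh : ∀ i : Fin m, sType true (m + 1) i.castSucc = false := fun i => by
        simp [sType, ne_of_lt i.isLt]
      simp only [hh, Bool.false_eq_true, if_false, Finset.prod_const, Finset.card_univ, Fintype.card_fin] at h3
      simp [sType] at h3
      have : (0 : ℤ) < 2 ^ m := by positivity
      linarith

theorem prankLE_congr {E F : Type*} [Group E] [Group F] (e : E ≃* F) (k : ℕ)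
    (h : Cfsg.PRankLE 2 k F) : Cfsg.PRankLE 2 k E := by
  intro A hA hA2
  refine (Nat.card_congr (A.equivMapOfInjective e.toMonoidHom e.injective).toEquiv).le.trans
    (h _ ⟨⟨?_⟩⟩ ?_)
  · rintro ⟨_, a, ha, rfl⟩ ⟨_, c, hc, rfl⟩
    apply Subtype.ext
    show e a * e c = e c * e a
    rw [← map_mul, ← map_mul]
    exact congrArg e (congrArg Subtype.val (hA.is_comm.comm ⟨a, ha⟩ ⟨c, hc⟩))
  · rintro _ ⟨a, ha, rfl⟩
    rw [← map_pow, hA2 a ha, map_one]

theorem prankLE_iff {E : Type*} [Group E] [Finite E] {b : Bool} {n : ℕ} (hn : 1 ≤ n)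
    (e : E ≃* Ext (sType b n)) (k : ℕ) : Cfsg.PRankLE 2 k E ↔ rk b n ≤ k :=
  ⟨fun h => (prankLE_model b n hn k).1 (prankLE_congr e.symm k h),
    fun h => prankLE_congr e k ((prankLE_model b n hn k).2 h)⟩

end Cfsg.Agent.FGS4.ExtraTwoRank
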