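/-
The principal ideal theorem: the transfer into the abelianised derived group is trivial.
-/
import Mathlib.GroupTheory.Transfer
import Mathlib.GroupTheory.Abelianization.Defs
import Mathlib.Algebra.MonoidAlgebra.Basic
import Mathlib.LinearAlgebra.FreeModule.Finite.CardQuotient
import Mathlib.LinearAlgebra.Matrix.Adjugate
import Mathlib.LinearAlgebra.FreeModule.PID
import Mathlib.LinearAlgebra.Dimension.Free
import Mathlib.LinearAlgebra.StdBasis

set_option autoImplicit false

namespace Cfsg.Agent.FGS4.PrincipalIdeal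

open MonoidAlgebra

variable {G Q : Type*} [Group G] [Finite G] [CommGroup Q] [Fintype Q]

/-- The augmentation. -/
noncomputable def aug (Q : Type*) [CommGroup Q] : MonoidAlgebra ℤ Q →ₐ[ℤ] ℤ :=
  MonoidAlgebra.lift ℤ ℤ Q 1

theorem aug_of (q : Q) : aug Q (of ℤ Q q) = 1 := by simp [aug]

/-- Norm element annihilates the values of a crossed homomorphism. -/
theorem norm_smul_eq_zero {W : Type*} [AddCommGroup W] [Module (MonoidAlgebra ℤ Q) W]
    (π : G →* Q) (hπ : Function.Surjective π) (hker : π.ker ≤ commutator G) (d : G → W)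
    (hd : ∀ g h, d (g * h) = d g + of ℤ Q (π g) • d h) (g₀ : G) :
    (∑ q : Q, of ℤ Q q) • d g₀ = 0 := by
  classical
  letI := Fintype.ofFinite G
  let Λ := MonoidAlgebra ℤ Q
  let y : G → W × Λ := fun g => (d g, of ℤ Q (π g) - 1)
  have hy : ∀ g h, y (g * h) = y g + of ℤ Q (π g) • y h := fun g h => by
    refine Prod.ext (hd g h) ?_
    show of ℤ Q (π (g * h)) - 1 = (of ℤ Q (π g) - 1) + of ℤ Q (π g) * (of ℤ Q (π h) - 1)
    rw [map_mul, map_mul, mul_sub, mul_one]
    abel
  let K : AddSubgroup (W × Λ) :=
    { carrier := {w | ∃ j : G → Λ, (∀ g, aug Q (j g) = 0) ∧ w = ∑ g, j g • y g}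
      zero_mem' := ⟨0, fun g => map_zero _, by simp⟩
      add_mem' := by
        rintro a b ⟨j, hj, rfl⟩ ⟨k, hk, rfl⟩
        exact ⟨j + k, fun g => by simp [hj g, hk g], by simp [add_smul, Finset.sum_add_distrib]⟩
      neg_mem' := by
        rintro a ⟨j, hj, rfl⟩
        exact ⟨-j, fun g => by simp [hj g], by simp [neg_smul]⟩ }
  have hhom : ∀ g h, y (g * h) - (y g + y h) ∈ K := by
    intro g h
    refine ⟨Pi.single h (of ℤ Q (π g) - 1), fun x => ?_, ?_⟩
    · rcases eq_or_ne x h with rfl | hne
      · rw [Pi.single_eq_same, map_sub, aug_of, map_one, sub_self]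
      · rw [Pi.single_eq_of_ne hne, map_zero]
    · rw [Finset.sum_eq_single h (fun x _ hx => by rw [Pi.single_eq_of_ne hx, zero_smul])
        (fun hh => absurd (Finset.mem_univ h) hh), Pi.single_eq_same, sub_smul, one_smul, hy]
      abel
  let φ : G →* Multiplicative ((W × Λ) ⧸ K) :=
    MonoidHom.mk' (fun g => Multiplicative.ofAdd (QuotientAddGroup.mk (y g))) fun g h => by
      rw [← ofAdd_add, ← QuotientAddGroup.mk_add]
      refine congrArg _ ?_
      rw [QuotientAddGroup.eq]
      have := K.neg_mem (hhom g h)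
      rwa [neg_sub, sub_eq_add_neg, add_comm] at this
  -- the relations
  let χ : (G → ℤ) →ₗ[ℤ] Additive Q := Fintype.linearCombination ℤ fun g => Additive.ofMul (π g)
  have hrel : ∀ v ∈ LinearMap.ker χ, ∃ j : G → Λ, (∀ g, aug Q (j g) = 0) ∧
      ∑ g, ((v g : Λ) - j g) • y g = 0 := by
    intro v hv
    let π' : Abelianization G →* Q := Abelianization.lift π
    have hinj : Function.Injective π' := by
      rw [injective_iff_map_eq_one]
      intro x hx
      obtain ⟨a, rfl⟩ := QuotientGroup.mk_surjective x
      exact (QuotientGroup.eq_one_iff a).mpr (hker (show π a = 1 from (Abelianization.lift_apply_of π a).symm.trans hx))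
    have hz : ∏ g, (Abelianization.of g) ^ v g = 1 := by
      refine hinj ?_
      rw [map_prod, map_one]
      simp only [map_zpow, π', Abelianization.lift_apply_of]
      have h0 : χ v = 0 := hv
      rw [Fintype.linearCombination_apply] at h0
      have h1 := congrArg Additive.toMul h0
      rw [toMul_sum, toMul_zero] at h1
      simpa [toMul_zsmul] using h1
    have hsum : ∑ g, v g • y g ∈ K := by
      rw [← QuotientAddGroup.eq_zero_iff]
      have := congrArg (fun x => Multiplicative.toAdd (Abelianization.lift φ x)) hz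
      simp only [map_prod, map_zpow, Abelianization.lift_apply_of, map_one, toAdd_one, toAdd_prod,
        toAdd_zpow] at this
      rw [QuotientAddGroup.mk_sum]
      simpa [φ] using this
    obtain ⟨j, hj, hje⟩ := hsum
    refine ⟨j, hj, ?_⟩
    simp only [sub_smul, Finset.sum_sub_distrib, Int.cast_smul_eq_zsmul, hje, sub_self]
  have hrank : Module.finrank ℤ (LinearMap.ker χ) = Fintype.card G := by
    refine le_antisymm ((Submodule.finrank_le _).trans (le_of_eq (Module.finrank_fintype_fun_eq_card ℤ))) ?_
    let f : (G → ℤ) →ₗ[ℤ] LinearMap.ker χ :=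
      LinearMap.codRestrict _ ((Fintype.card Q : ℤ) • LinearMap.id) fun v => by
        rw [LinearMap.mem_ker, LinearMap.smul_apply, LinearMap.id_apply, map_smul, natCast_zsmul]
        exact pow_card_eq_one (x := Additive.toMul (χ v))
    have hf : Function.Injective f := by
      intro a b h
      have h' := congrArg Subtype.val h
      exact smul_right_injective (G → ℤ) (Int.natCast_ne_zero.mpr Fintype.card_ne_zero) h'
    exact (le_of_eq (Module.finrank_fintype_fun_eq_card ℤ).symm).trans
      (LinearMap.finrank_le_finrank_of_injective hf)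
  let b : Module.Basis G ℤ (LinearMap.ker χ) :=
    (Module.finBasisOfFinrankEq ℤ _ hrank).reindex (Fintype.equivFin G).symm
  choose j hj hje using fun i => hrel (b i : G → ℤ) (b i).2
  let R : Matrix G G Λ := Matrix.of fun i g => ((b i : G → ℤ) g : Λ) - j i g
  have hdet0 : ∀ k, R.det • y k = 0 := by
    intro k
    have h1 : ∑ i, R.adjugate k i • ∑ g, R i g • y g = 0 := by
      simp only [R, Matrix.of_apply, hje, smul_zero, Finset.sum_const_zero]
    simp only [Finset.smul_sum, smul_smul] at h1
    rw [Finset.sum_comm] at h1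
    simp only [← Finset.sum_smul] at h1
    have h2 : ∀ g, ∑ i, R.adjugate k i * R i g = (R.det • (1 : Matrix G G Λ)) k g := fun g => by
      rw [← Matrix.adjugate_mul, Matrix.mul_apply]
    simp only [h2, Matrix.smul_apply, Matrix.one_apply, smul_eq_mul, mul_ite, mul_one, mul_zero,
      ite_smul, zero_smul, Finset.sum_ite_eq, Finset.mem_univ, if_true] at h1
    exact h1
  have hconst : ∀ q : Q, R.det.coeff q = R.det.coeff 1 := by
    intro q
    obtain ⟨g, rfl⟩ := hπ q
    have h2 : R.det * (of ℤ Q (π g) - 1) = 0 := congrArg Prod.snd (hdet0 g)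
    rw [mul_sub, mul_one, sub_eq_zero] at h2
    have h3 := congrArg (fun x : Λ => x.coeff (π g)) h2
    erw [MonoidAlgebra.coeff_mul_single_apply] at h3
    rw [mul_inv_cancel, mul_one] at h3
    exact h3.symm
  set c := R.det.coeff 1 with hc
  have hdetN : R.det = c • ∑ q : Q, of ℤ Q q := by
    refine MonoidAlgebra.ext (Finsupp.ext fun q => ?_)
    rw [hconst q]
    simp [Finset.smul_sum, Finsupp.finsetSum_apply, Finsupp.single_apply, of_apply]
  have habs : (aug Q R.det).natAbs = Fintype.card Q := by
    rw [AlgHom.map_det]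
    have he : (aug Q).mapMatrix R = ((Pi.basisFun ℤ G).toMatrix fun i => (b i : G → ℤ)).transpose := by
      ext i g
      simp [R, hj, Module.Basis.toMatrix_apply]
    rw [he, Matrix.det_transpose, ← Module.Basis.det_apply]
    have hd := Submodule.natAbs_det_basis_change (Pi.basisFun ℤ G) (LinearMap.ker χ) b
    rw [show ((Subtype.val) ∘ b) = fun i => (b i : G → ℤ) from rfl] at hd
    rw [hd, Nat.card_congr (LinearMap.quotKerEquivRange χ).toEquiv,
      LinearMap.range_eq_top.mpr ?_, Nat.card_congr Submodule.topEquiv.toEquiv,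
      ← Nat.card_eq_fintype_card (α := Q)]
    · exact Nat.card_congr Additive.toMul
    · intro x
      obtain ⟨g, hg⟩ := hπ (Additive.toMul x)
      refine ⟨Pi.single g 1, ?_⟩
      rw [Fintype.linearCombination_apply_single, one_smul, hg, ofMul_toMul]
  have hc1 : c = 1 ∨ c = -1 := by
    rw [hdetN, map_zsmul, map_sum] at habs
    simp only [aug_of, Finset.sum_const, Finset.card_univ, nsmul_eq_mul, mul_one, smul_eq_mul,
      Int.natAbs_mul, Int.natAbs_natCast] at habs
    exact Int.natAbs_eq_iff.mp ((Nat.mul_eq_right Fintype.card_ne_zero).mp habs)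
  have h0 : R.det • d g₀ = 0 := congrArg Prod.fst (hdet0 g₀)
  rw [hdetN, smul_assoc] at h0
  rcases hc1 with h | h <;> rw [h] at h0
  · simpa using h0
  · simpa using h0

end Cfsg.Agent.FGS4.PrincipalIdeal
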