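import Mathlib.GroupTheory.GroupAction.MultipleTransitivity
import Mathlib.GroupTheory.Index
import Mathlib.LinearAlgebra.Matrix.NonsingularInverse
import Mathlib.RingTheory.Coprime.Lemmas
import Mathlib.RingTheory.Int.Basic
import Mathlib.Tactic.LinearCombination
import Mathlib.Algebra.Ring.Parity
import Mathlib.Algebra.Ring.GeomSum

/-! # Automorphisms of odd order of doubly transitive groups: the twisted incidence matrix

If `α` has odd order, `H = G_o` and `α(H)` has an orbit of size `k` coprime to the degree `v`, the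
incidence matrix `M` satisfies `M ρ(g) = ρ(α g) M`, so `MᵀM` and `M ^ orderOf α` lie in the span of
`1` and `J`; this forces `k = 1` or `k = v - 1`.
-/

set_option linter.style.haveILetI false

namespace Cfsg.Agent.FGS4.TwistedIncidence

open Matrix MulAction

theorem numeric {v k n l a b : ℤ} {j : ℕ} (hv : 2 ≤ v) (hk : 0 < k) (hkv : k ≤ v)
    (hco : IsCoprime k v) (h1 : n + l = k) (h2 : n + v * l = k ^ 2) (hl : 0 ≤ l)
    (ha : a ^ 2 = n ^ (2 * j + 1)) (hb : a + v * b = k ^ (2 * j + 1)) : k = 1 ∨ k = v - 1 := by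
  have hkv' : k < v := by
    rcases lt_or_eq_of_le hkv with h | h
    · exact h
    · subst h
      have := Int.isUnit_iff.1 (isCoprime_self.1 hco)
      omega
  have hn : (v - 1) * n = k * (v - k) := by linear_combination v * h1 - h2
  have hn0 : 0 < n := by
    have h3 : 0 < (v - 1) * n := by rw [hn]; exact mul_pos hk (by omega)
    exact pos_of_mul_pos_right h3 (by omega)
  -- `n` is a square
  obtain ⟨s, hs0, hs⟩ : ∃ s : ℤ, 0 < s ∧ n = s ^ 2 := by
    have h4 : (n ^ j) ^ 2 ∣ a ^ 2 := ⟨n, by rw [ha]; ring⟩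
    obtain ⟨s, hs⟩ := (Int.pow_dvd_pow_iff two_ne_zero).1 h4
    have h5 : n = s ^ 2 := by
      have h6 : (n ^ j) ^ 2 * n = (n ^ j) ^ 2 * s ^ 2 := by
        rw [← mul_pow, ← hs, ha]; ring
      exact mul_left_cancel₀ (pow_ne_zero _ (pow_ne_zero _ hn0.ne')) h6
    refine ⟨|s|, abs_pos.2 (fun h => ?_), by rw [sq_abs]; exact h5⟩
    rw [h5, h] at hn0; simp at hn0
  have hsk : s ≤ k := le_trans (by nlinarith) (show n ≤ k by omega)
  -- the congruences
  have hk2 : v ∣ k ^ 2 - s ^ 2 := ⟨l, by rw [← hs]; linear_combination -h2⟩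
  have hcs : IsCoprime s v := by
    obtain ⟨c, hc⟩ := hk2
    have h7 : IsCoprime (s ^ 2) v := by
      rw [show s ^ 2 = k ^ 2 + v * (-c) by linear_combination -hc]
      exact hco.pow_left.add_mul_left_left _
    exact (IsCoprime.pow_left_iff two_pos).1 h7
  have hpm : a = s ^ (2 * j + 1) ∨ a = -s ^ (2 * j + 1) := by
    refine sq_eq_sq_iff_eq_or_eq_neg.1 ?_
    rw [ha, hs]; ring
  have hkey : v ∣ k - s ∨ v ∣ k + s := by
    have h8 : v ∣ (k ^ 2) ^ j - (s ^ 2) ^ j := hk2.trans (sub_dvd_pow_sub_pow _ _ j)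
    have h9 : IsCoprime v ((s ^ 2) ^ j) := hcs.symm.pow_right.pow_right
    rcases hpm with e | e
    · left
      refine h9.dvd_of_dvd_mul_right ?_
      obtain ⟨c, hc⟩ := h8
      exact ⟨b - k * c, by rw [e] at hb; linear_combination -hb - k * hc⟩
    · right
      refine h9.dvd_of_dvd_mul_right ?_
      obtain ⟨c, hc⟩ := h8
      exact ⟨b - k * c, by rw [e] at hb; linear_combination -hb - k * hc⟩
  rcases hkey with h | h
  · left
    have : k - s = 0 := Int.eq_zero_of_abs_lt_dvd h (by rw [abs_lt]; omega)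
    have e : k = s := by omega
    subst e
    nlinarith
  · right
    obtain ⟨c, hc⟩ := h
    have hc1 : c = 1 := by nlinarith
    rw [hc1, mul_one] at hc
    have h10 : s * (v - 1) * s = s * (v - s) := by
      rw [show k = v - s by omega] at hn
      rw [hs] at hn
      linear_combination hn
    have h11 : (v - 1) * s = v - s := by
      have := mul_left_cancel₀ hs0.ne' (show s * ((v - 1) * s) = s * (v - s) by linear_combination h10)
      exact this
    have : s = 1 := by nlinarith
    omega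

section

variable {G Ω : Type*} [Group G] [MulAction G Ω] [Fintype Ω] [DecidableEq Ω]

/-- The all-one matrix. -/
def allOne (Ω : Type*) : Matrix Ω Ω ℤ := Matrix.of fun _ _ => 1

theorem eq_one_add_allOne (h2 : IsMultiplyPretransitive G Ω 2) {o o' : Ω} (hoo : o ≠ o')
    (A : Matrix Ω Ω ℤ) (hA : ∀ (g : G) x y, A (g • x) (g • y) = A x y) :
    A = (A o o - A o o') • (1 : Matrix Ω Ω ℤ) + A o o' • allOne Ω := by
  haveI := isPretransitive_of_is_two_pretransitive (G := G) (α := Ω)
  ext x y
  by_cases hxy : x = y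
  · subst hxy
    obtain ⟨g, rfl⟩ := exists_smul_eq G o x
    rw [hA]
    simp only [Matrix.add_apply, Matrix.smul_apply, Matrix.one_apply_eq, allOne, Matrix.of_apply,
      smul_eq_mul, mul_one, sub_add_cancel]
  · obtain ⟨g, rfl, rfl⟩ := is_two_pretransitive_iff.1 h2 hoo hxy
    rw [hA]
    simp only [Matrix.add_apply, Matrix.smul_apply, Matrix.one_apply_ne hxy, allOne,
      Matrix.of_apply, smul_eq_mul, mul_one, mul_zero, zero_add]

theorem sum_smul_reindex (g : G) (f : Ω → ℤ) : ∑ z, f (g • z) = ∑ z, f z :=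
  Equiv.sum_comp (MulAction.toPerm g) f

theorem eq_fixed_of_coprime (h2 : IsMultiplyPretransitive G Ω 2) (o : Ω) (α : MulAut G)
    (hα : Odd (orderOf α)) (ω : Ω)
    (hco : (Nat.card (orbit ((stabilizer G o).map α.toMonoidHom) ω)).Coprime (Fintype.card Ω)) :
    Nat.card (orbit ((stabilizer G o).map α.toMonoidHom) ω) = 1 ∨
      Nat.card (orbit ((stabilizer G o).map α.toMonoidHom) ω) = Fintype.card Ω - 1 := by
  classical
  haveI := isPretransitive_of_is_two_pretransitive (G := G) (α := Ω)
  set H := (stabilizer G o).map α.toMonoidHom with hH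
  set O := orbit H ω with hO
  set k := Nat.card O with hk
  have hkpos : 0 < k := by
    haveI : Nonempty O := ⟨⟨ω, mem_orbit_self ω⟩⟩
    exact Nat.card_pos
  have hkv : k ≤ Fintype.card Ω := by
    rw [← Nat.card_eq_fintype_card]; exact Finite.card_subtype_le _
  rcases Nat.lt_or_ge (Fintype.card Ω) 2 with hv | hv
  · left; omega
  obtain ⟨o', ho'⟩ := Fintype.exists_ne_of_one_lt_card hv o
  choose r hr using fun y : Ω => exists_smul_eq G o y
  set M : Matrix Ω Ω ℤ := Matrix.of fun x y => if (α (r y))⁻¹ • x ∈ O then 1 else 0 with hM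
  have hMapp : ∀ x y, M x y = if (α (r y))⁻¹ • x ∈ O then 1 else 0 := fun x y => rfl
  have hinv : ∀ (g : G) x y, M (α g • x) (g • y) = M x y := by
    intro g x y
    have hstab : (r (g • y))⁻¹ * g * r y ∈ stabilizer G o := by
      rw [mem_stabilizer_iff, mul_smul, mul_smul, hr, inv_smul_eq_iff, hr]
    set h' : H := ⟨α ((r (g • y))⁻¹ * g * r y), Subgroup.mem_map_of_mem _ hstab⟩
    have e : (α (r (g • y)))⁻¹ • α g • x = h' • ((α (r y))⁻¹ • x) := by
      show _ = α ((r (g • y))⁻¹ * g * r y) • ((α (r y))⁻¹ • x : Ω)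
      rw [map_mul, map_mul, map_inv]
      simp only [smul_smul, mul_assoc, mul_inv_cancel, mul_one]
    rw [hMapp, hMapp, e]
    refine if_congr ⟨fun h => ?_, fun h => ?_⟩ rfl rfl
    · obtain ⟨a, ha⟩ := h
      refine ⟨h'⁻¹ * a, ?_⟩
      show (h'⁻¹ * a) • ω = (α (r y))⁻¹ • x
      rw [mul_smul, show a • ω = h' • ((α (r y))⁻¹ • x) from ha, inv_smul_smul]
    · obtain ⟨a, ha⟩ := h
      exact ⟨h' * a, by rw [← ha]; exact mul_smul h' a ω⟩
  have hcol : ∀ y, ∑ x, M x y = k := by
    intro y
    rw [← sum_smul_reindex (α (r y))]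
    simp only [hMapp, inv_smul_smul]
    rw [Finset.sum_boole, hk, Nat.card_eq_fintype_card, ← Set.toFinset_card]
    congr 2
    ext z; simp
  have hrow : ∀ x, ∑ y, M x y = k := by
    have hconst : ∀ x, ∑ y, M x y = ∑ y, M o y := by
      intro x
      obtain ⟨g, rfl⟩ := exists_smul_eq G o x
      rw [← sum_smul_reindex (α.symm g)]
      refine Finset.sum_congr rfl fun y _ => ?_
      have := hinv (α.symm g) o y
      rwa [show α (α.symm g) = g from α.apply_symm_apply g] at this
    have h3 : ∑ x, ∑ y, M x y = ∑ y, ∑ x, M x y := Finset.sum_comm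
    rw [Finset.sum_congr rfl (fun x _ => hconst x), Finset.sum_congr rfl (fun y _ => hcol y)] at h3
    simp only [Finset.sum_const, Finset.card_univ, nsmul_eq_mul] at h3
    intro x
    rw [hconst]
    exact mul_left_cancel₀ (by positivity) h3
  set J := allOne Ω with hJ
  have hJM : J * M = (k : ℤ) • J := by
    ext x y
    simp [Matrix.mul_apply, hJ, allOne, hcol]
  have hMJ : Mᵀ * J = (k : ℤ) • J := by
    ext x y
    simp [Matrix.mul_apply, hJ, allOne, hcol]
  set N := Mᵀ * M with hN
  have hNinv : ∀ (g : G) x y, N (g • x) (g • y) = N x y := by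
    intro g x y
    simp only [hN, Matrix.mul_apply, Matrix.transpose_apply]
    rw [← sum_smul_reindex (α g)]
    simp only [hinv]
  set n : ℤ := N o o - N o o'
  set l : ℤ := N o o'
  have hNeq : N = n • (1 : Matrix Ω Ω ℤ) + l • J := eq_one_add_allOne h2 ho'.symm N hNinv
  have h01 : ∀ x y, M x y = 0 ∨ M x y = 1 := fun x y => by
    rw [hMapp]; split_ifs <;> simp
  have hnl : n + l = k := by
    show N o o - N o o' + N o o' = k
    rw [sub_add_cancel, hN, Matrix.mul_apply, ← hcol o]
    refine Finset.sum_congr rfl fun x _ => ?_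
    rw [Matrix.transpose_apply]
    rcases h01 x o with e | e <;> simp [e]
  have hl0 : 0 ≤ l := by
    show 0 ≤ N o o'
    rw [hN, Matrix.mul_apply]
    refine Finset.sum_nonneg fun x _ => ?_
    rw [Matrix.transpose_apply]
    rcases h01 x o with e | e <;> rcases h01 x o' with e' | e' <;> simp [e, e']
  have hnvl : n + (Fintype.card Ω : ℤ) * l = (k : ℤ) ^ 2 := by
    have e1 : ∑ x, N x o = (k : ℤ) ^ 2 := by
      simp only [hN, Matrix.mul_apply, Matrix.transpose_apply]
      rw [Finset.sum_comm]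
      simp only [← Finset.sum_mul, hrow]
      rw [← Finset.mul_sum, hcol, pow_two]
    rw [← e1, hNeq]
    simp only [hJ, allOne, Finset.sum_add_distrib, Matrix.add_apply, Matrix.smul_apply,
      Matrix.one_apply, Matrix.of_apply, smul_eq_mul, mul_ite, mul_one, mul_zero,
      Finset.sum_ite_eq', Finset.mem_univ, if_true, Finset.sum_const, Finset.card_univ,
      nsmul_eq_mul]
  -- powers
  have hpowinv : ∀ (i : ℕ) (g : G) x y, (M ^ i) ((α ^ i) g • x) (g • y) = (M ^ i) x y := by
    intro i
    induction i with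
    | zero =>
      intro g x y
      simp [Matrix.one_apply]
    | succ i ih =>
      intro g x y
      rw [pow_succ M, pow_succ α, Matrix.mul_apply, Matrix.mul_apply, MulAut.mul_apply,
        ← sum_smul_reindex (α g)]
      simp only [ih, hinv]
  have hJpow : ∀ i : ℕ, J * M ^ i = ((k : ℤ) ^ i) • J := by
    intro i
    induction i with
    | zero => simp
    | succ i ih => rw [pow_succ, ← mul_assoc, ih, smul_mul_assoc, hJM, smul_smul, ← pow_succ]
  have hgram : ∀ i : ℕ, ∃ c : ℤ, (M ^ i)ᵀ * M ^ i = (n ^ i) • (1 : Matrix Ω Ω ℤ) + c • J := by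
    intro i
    induction i with
    | zero => exact ⟨0, by simp⟩
    | succ i ih =>
      obtain ⟨c, hc⟩ := ih
      refine ⟨n ^ i * l + c * k ^ 2, ?_⟩
      rw [pow_succ, Matrix.transpose_mul, mul_assoc, ← mul_assoc ((M ^ i)ᵀ), hc, add_mul, mul_add,
        smul_mul_assoc, one_mul, mul_smul_comm, smul_mul_assoc, hJM, smul_smul, mul_smul_comm, hMJ,
        smul_smul, ← hN, hNeq, smul_add, smul_smul, smul_smul, add_assoc, ← add_smul, pow_succ]
      congr 2
      ring
  obtain ⟨j, hj⟩ := hα
  set m := orderOf α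
  have hm1 : α ^ m = 1 := pow_orderOf_eq_one α
  have hPinv : ∀ (g : G) x y, (M ^ m) (g • x) (g • y) = (M ^ m) x y := by
    intro g x y
    have := hpowinv m g x y
    rwa [hm1] at this
  set a : ℤ := (M ^ m) o o - (M ^ m) o o'
  set b : ℤ := (M ^ m) o o'
  have hPeq : M ^ m = a • (1 : Matrix Ω Ω ℤ) + b • J := eq_one_add_allOne h2 ho'.symm _ hPinv
  have ha2 : a ^ 2 = n ^ m := by
    obtain ⟨c, hc⟩ := hgram m
    have e1 : ∀ x y, ((M ^ m)ᵀ * M ^ m) x y =
        (if x = y then a ^ 2 else 0) + (2 * a * b + b ^ 2 * Fintype.card Ω) := by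
      intro x y
      rw [hPeq]
      have hJJ : J * J = (Fintype.card Ω : ℤ) • J := by ext; simp [hJ, allOne, Matrix.mul_apply]
      have hJt : Jᵀ = J := by ext; simp [hJ, allOne]
      simp only [Matrix.transpose_add, Matrix.transpose_smul, Matrix.transpose_one, hJt, add_mul,
        mul_add, smul_mul_assoc, mul_smul_comm, one_mul, mul_one, hJJ, smul_add, smul_smul]
      simp only [hJ, allOne, Matrix.add_apply, Matrix.smul_apply, Matrix.one_apply, Matrix.of_apply,
        smul_eq_mul, mul_ite, mul_one, mul_zero]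
      split_ifs <;> ring
    have e2 := congrFun (congrFun hc o) o
    have e3 := congrFun (congrFun hc o) o'
    rw [e1] at e2 e3
    simp only [hJ, allOne, Matrix.add_apply, Matrix.smul_apply, Matrix.one_apply, Matrix.of_apply,
      smul_eq_mul, mul_one, mul_zero, if_pos, if_neg ho'.symm, zero_add] at e2 e3
    linarith
  have hab : a + (Fintype.card Ω : ℤ) * b = (k : ℤ) ^ m := by
    have := congrFun (congrFun (hJpow m) o) o
    rw [hPeq] at this
    simp only [hJ, allOne, Matrix.mul_apply, Matrix.one_apply, Matrix.add_apply, Matrix.smul_apply,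
      Matrix.of_apply, smul_eq_mul, mul_ite, mul_one, mul_zero, one_mul, Finset.sum_add_distrib,
      Finset.sum_ite_eq', Finset.mem_univ, if_true, Finset.sum_const, Finset.card_univ,
      nsmul_eq_mul] at this
    linarith
  rw [hj] at ha2 hab
  have := numeric (v := (Fintype.card Ω : ℤ)) (k := (k : ℤ)) (by exact_mod_cast hv)
    (by exact_mod_cast hkpos) (by exact_mod_cast hkv) (Int.isCoprime_iff_nat_coprime.2 (by simpa using hco))
    hnl hnvl hl0 ha2 hab
  omega

theorem exists_perm [Finite G] [FaithfulSMul G Ω] (h2 : IsMultiplyPretransitive G Ω 2) (o : Ω)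
    (α : MulAut G) (hα : Odd (orderOf α)) (ω : Ω)
    (hco : (Nat.card (orbit ((stabilizer G o).map α.toMonoidHom) ω)).Coprime (Fintype.card Ω)) :
    ∃ σ : Equiv.Perm Ω, ∀ (g : G) (x : Ω), α g • σ x = σ (g • x) := by
  classical
  haveI := isPretransitive_of_is_two_pretransitive (G := G) (α := Ω)
  set H := (stabilizer G o).map α.toMonoidHom with hH
  obtain ⟨p, hp⟩ : ∃ p, ∀ h ∈ H, h • p = p := by
    rcases eq_fixed_of_coprime h2 o α hα ω hco with h | h
    · refine ⟨ω, fun g hg => ?_⟩
      obtain ⟨hsub, -⟩ := Nat.card_eq_one_iff_unique.1 h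
      exact congrArg Subtype.val (hsub.elim ⟨g • ω, ⟨⟨g, hg⟩, rfl⟩⟩ ⟨ω, mem_orbit_self ω⟩)
    · rcases Nat.lt_or_ge (Fintype.card Ω) 2 with hv | hv
      · exact ⟨ω, fun g _ => @Subsingleton.elim _ (Fintype.card_le_one_iff_subsingleton.1 (by omega)) _ _⟩
      set O := orbit H ω with hO
      have h3 : (O.toFinset)ᶜ.card = 1 := by
        rw [Finset.card_compl, Set.toFinset_card, ← Nat.card_eq_fintype_card (α := O), h]; omega
      obtain ⟨p, hp⟩ := Finset.card_eq_one.1 h3
      refine ⟨p, fun g hg => ?_⟩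
      have hmem : ∀ z, z ∉ O ↔ z = p := fun z => by
        have := congrArg (z ∈ ·) hp
        simpa using this
      rw [← hmem]
      intro hc
      refine (hmem p).2 rfl ?_
      obtain ⟨a, ha⟩ := hc
      refine ⟨(⟨g, hg⟩ : H)⁻¹ * a, ?_⟩
      show ((⟨g, hg⟩ : H)⁻¹ * a) • ω = p
      rw [mul_smul, show a • ω = g • p from ha]
      exact inv_smul_smul g p
  choose r hr using fun y : Ω => exists_smul_eq G o y
  have hwd : ∀ g : G, α g • p = α (r (g • o)) • p := by
    intro g
    have hs : (r (g • o))⁻¹ * g ∈ stabilizer G o := by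
      rw [mem_stabilizer_iff, mul_smul, inv_smul_eq_iff, hr]
    have := hp _ (Subgroup.mem_map_of_mem α.toMonoidHom hs)
    rw [MulEquiv.coe_toMonoidHom, map_mul, map_inv, mul_smul, inv_smul_eq_iff] at this
    exact this
  have hcomm : ∀ (g : G) (x : Ω), α g • (α (r x) • p) = α (r (g • x)) • p := by
    intro g x
    rw [smul_smul, ← map_mul, hwd, mul_smul, hr]
  have hsurj : Function.Surjective fun x => α (r x) • p := by
    intro y
    obtain ⟨g, rfl⟩ := exists_smul_eq G p y
    exact ⟨α.symm g • o, by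
      show α (r (α.symm g • o)) • p = g • p
      rw [← hwd, show α (α.symm g) = g from α.apply_symm_apply g]⟩
  exact ⟨Equiv.ofBijective _ ((Finite.surjective_iff_bijective).1 hsurj), hcomm⟩

theorem induced_by_perm (K : Subgroup (Equiv.Perm Ω)) (h2 : IsMultiplyPretransitive K Ω 2) (o : Ω)
    (α : MulAut K) (hα : Odd (orderOf α)) (ω : Ω)
    (hco : (Nat.card (orbit ((stabilizer K o).map α.toMonoidHom) ω)).Coprime (Fintype.card Ω)) :
    ∃ σ : Equiv.Perm Ω, σ ∈ Subgroup.normalizer (K : Set (Equiv.Perm Ω)) ∧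
      ∀ g : K, ((α g : K) : Equiv.Perm Ω) = σ * (g : Equiv.Perm Ω) * σ⁻¹ := by
  obtain ⟨σ, hσ⟩ := exists_perm h2 o α hα ω hco
  have heq : ∀ g : K, ((α g : K) : Equiv.Perm Ω) = σ * (g : Equiv.Perm Ω) * σ⁻¹ := by
    intro g
    refine eq_mul_inv_of_mul_eq (Equiv.ext fun x => ?_)
    exact hσ g x
  refine ⟨σ, Subgroup.mem_normalizer_iff.2 fun g => ⟨fun hg => ?_, fun hg => ?_⟩, heq⟩
  · have := (α ⟨g, hg⟩).2
    rwa [heq] at this
  · have h1 := heq (α.symm ⟨_, hg⟩)
    rw [show α (α.symm ⟨_, hg⟩) = ⟨σ * g * σ⁻¹, hg⟩ from α.apply_symm_apply _] at h1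
    have h3 := mul_left_cancel (mul_right_cancel h1)
    rw [h3]
    exact SetLike.coe_mem _

theorem coprime_orbit_of_hall [Finite G] (h2 : IsMultiplyPretransitive G Ω 2) (o : Ω) (α : MulAut G)
    (hHall : (Nat.card (stabilizer G o)).Coprime (stabilizer G o).index) :
    (Nat.card (orbit ((stabilizer G o).map α.toMonoidHom) o)).Coprime (Fintype.card Ω) := by
  haveI := isPretransitive_of_is_two_pretransitive (G := G) (α := Ω)
  rw [index_stabilizer_of_transitive G o, Nat.card_eq_fintype_card (α := Ω)] at hHall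
  refine Nat.Coprime.coprime_dvd_left ?_ hHall
  have h1 : Nat.card (orbit ((stabilizer G o).map α.toMonoidHom) o) =
      (stabilizer ((stabilizer G o).map α.toMonoidHom) o).index := by
    rw [index_stabilizer, Nat.card_coe_set_eq]
  rw [h1]
  exact (Subgroup.index_dvd_card _).trans
    (dvd_of_eq (Subgroup.card_map_of_injective (f := α.toMonoidHom) α.injective))

end

end Cfsg.Agent.FGS4.TwistedIncidence
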