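import Cfsg.Prelude.Def_KGroupFacts
import Cfsg.Agent.FGS4.TwistedIncidence
import Cfsg.Agent.PermGroups.PrimeDegree
import Mathlib.GroupTheory.Sylow
import Mathlib.GroupTheory.SpecificGroups.Cyclic

/-! # The outer automorphism group of a simple group with a subgroup of prime index is solvable -/

set_option linter.style.haveILetI false

namespace Cfsg.Agent.FGS4.SchreierPrime

open Subgroup MulAction
open scoped Pointwise

universe u

theorem solvable_mulAut_of_cyclic {G : Type*} [Group G] [Finite G] [IsCyclic G] :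
    Group.IsSolvable (MulAut G) := by
  refine Group.isSolvable_of_comm fun a b => MulEquiv.ext fun x => ?_
  obtain ⟨g, hg⟩ := IsCyclic.exists_generator (α := G)
  obtain ⟨m, hm⟩ := Subgroup.mem_zpowers_iff.1 (hg (a g))
  obtain ⟨n, hn⟩ := Subgroup.mem_zpowers_iff.1 (hg (b g))
  obtain ⟨i, rfl⟩ := Subgroup.mem_zpowers_iff.1 (hg x)
  show a (b (g ^ i)) = b (a (g ^ i))
  simp only [map_zpow, ← hm, ← hn, ← zpow_mul]
  congr 1
  ring

/-- The normalizer of a transitive subgroup of prime order is solvable. -/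
theorem solvable_normalizer {α : Type*} [Fintype α] {p : ℕ} [Fact p.Prime] (hα : Fintype.card α = p)
    (P : Subgroup (Equiv.Perm α)) (hP : Nat.card P = p) [IsPretransitive P α] :
    Group.IsSolvable (Subgroup.normalizer (P : Set (Equiv.Perm α))) := by
  classical
  haveI : IsCyclic P := isCyclic_of_prime_card hP
  set f := P.normalizerMonoidHom
  have hker : Group.IsSolvable f.ker := by
    refine Group.isSolvable_of_comm fun a b => Subtype.ext (Subtype.ext (Equiv.ext fun x => ?_))
    have key : ∀ c : f.ker, ∀ z ∈ P, (((c : Subgroup.normalizer (P : Set (Equiv.Perm α)))) : Equiv.Perm α) * z =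
        z * ((c : Subgroup.normalizer (P : Set (Equiv.Perm α))) : Equiv.Perm α) := by
      intro c z hz
      have h1 : f (c : Subgroup.normalizer (P : Set (Equiv.Perm α))) ⟨z, hz⟩ = ⟨z, hz⟩ := by
        rw [MonoidHom.mem_ker.1 c.2]; rfl
      exact mul_inv_eq_iff_eq_mul.1 (congrArg Subtype.val h1)
    set A : Equiv.Perm α := ((a : Subgroup.normalizer (P : Set (Equiv.Perm α))) : Equiv.Perm α) with hA
    set B : Equiv.Perm α := ((b : Subgroup.normalizer (P : Set (Equiv.Perm α))) : Equiv.Perm α) with hB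
    show A (B x) = B (A x)
    obtain ⟨z, hz⟩ := exists_smul_eq P x (B x)
    obtain ⟨w, hw⟩ := exists_smul_eq P x (A x)
    have hz' : (z : Equiv.Perm α) x = B x := hz
    have hw' : (w : Equiv.Perm α) x = A x := hw
    have e1 : A (B x) = (z : Equiv.Perm α) ((w : Equiv.Perm α) x) := by
      rw [← hz', hw']
      exact congrArg (fun q : Equiv.Perm α => q x) (key a z z.2)
    have e2 : B (A x) = (w : Equiv.Perm α) ((z : Equiv.Perm α) x) := by
      rw [← hw', hz']
      exact congrArg (fun q : Equiv.Perm α => q x) (key b w w.2)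
    rw [e1, e2]
    haveI : IsMulCommutative P := inferInstance
    exact congrArg (fun q : P => (q : Equiv.Perm α) x) (mul_comm' z w)
  haveI := solvable_mulAut_of_cyclic (G := P)
  haveI := hker
  exact Group.isSolvable_of_ker_le_range f.ker.subtype f (by rw [Subgroup.range_subtype])

variable {G : Type u} [Group G] [Finite G] [IsSimpleGroup G]

theorem toPerm_injective {L : Subgroup G} (hL : L ≠ ⊤) :
    Function.Injective (MulAction.toPermHom G (G ⧸ L)) := by
  rw [← MonoidHom.ker_eq_bot_iff]
  rcases (MonoidHom.normal_ker (MulAction.toPermHom G (G ⧸ L))).eq_bot_or_eq_top with h | h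
  · exact h
  · exfalso
    apply hL
    rw [eq_top_iff]
    intro g _
    have h1 : MulAction.toPermHom G (G ⧸ L) g = 1 := by
      rw [← MonoidHom.mem_ker, h]; exact Subgroup.mem_top g
    have h2 : (QuotientGroup.mk (g * 1) : G ⧸ L) = QuotientGroup.mk 1 :=
      congrArg (fun q : Equiv.Perm (G ⧸ L) => q (QuotientGroup.mk 1)) h1
    rw [mul_one, QuotientGroup.eq] at h2
    simpa using h2

theorem not_dvd_card {p : ℕ} [hp : Fact p.Prime] {L : Subgroup G} (hL : L.index = p) :
    ¬ p ∣ Nat.card L := by
  intro hd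
  have hLt : L ≠ ⊤ := fun h => hp.out.ne_one (by rw [← hL, h, Subgroup.index_top])
  haveI := Fintype.ofFinite (G ⧸ L)
  have h1 : p ^ 2 ∣ Nat.card G := by
    rw [← L.card_mul_index, hL, pow_two]; exact Nat.mul_dvd_mul_right hd p
  have h2 := (Subgroup.card_dvd_of_injective _ (toPerm_injective hLt))
  rw [Nat.card_perm, ← Subgroup.index_eq_card, hL] at h2
  have h3 := h1.trans h2
  have hp1 : p = (p - 1) + 1 := (Nat.sub_add_cancel hp.out.one_le).symm
  have e : Nat.factorial p = p * Nat.factorial (p - 1) := by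
    conv_lhs => rw [hp1]
    rw [Nat.factorial_succ, ← hp1]
  rw [e, pow_two] at h3
  have h4 := Nat.dvd_of_mul_dvd_mul_left hp.out.pos h3
  have := (Nat.Prime.dvd_factorial hp.out).1 h4
  have := hp.out.one_le
  omega

theorem two_pretransitive (hns : ¬ Group.IsSolvable G) {p : ℕ} [hp : Fact p.Prime] {L : Subgroup G}
    (hL : L.index = p) : IsMultiplyPretransitive G (G ⧸ L) 2 := by
  classical
  have hLt : L ≠ ⊤ := fun h => hp.out.ne_one (by rw [← hL, h, Subgroup.index_top])
  haveI := Fintype.ofFinite (G ⧸ L)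
  have hcard : Fintype.card (G ⧸ L) = p := by
    rw [← Nat.card_eq_fintype_card, ← Subgroup.index_eq_card, hL]
  set ι := MulAction.toPermHom G (G ⧸ L)
  haveI : IsPretransitive ι.range (G ⧸ L) := ⟨fun x y => by
    obtain ⟨g, hg⟩ := exists_smul_eq G x y
    exact ⟨⟨ι g, g, rfl⟩, hg⟩⟩
  rcases PermGroups.prime_degree_solvable_or_two_transitive (p := p) hcard ι.range with h | h
  · exfalso
    apply hns
    haveI := h
    exact Group.isSolvable_of_isSolvable_injective
      (f := (MonoidHom.ofInjective (toPerm_injective hLt)).toMonoidHom) (MulEquiv.injective _)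
  · rw [is_two_pretransitive_iff] at h ⊢
    intro a b c d hab hcd
    obtain ⟨⟨_, g, rfl⟩, h1, h2⟩ := h hab hcd
    exact ⟨g, h1, h2⟩

/-- An automorphism of odd order fixes the class of every subgroup of index `p`. -/
theorem odd_fixes_class (hns : ¬ Group.IsSolvable G) {p : ℕ} [hp : Fact p.Prime] {L : Subgroup G}
    (hL : L.index = p) (a : MulAut G) (ha : Odd (orderOf a)) :
    a ∈ Inn G ⊔ MulAction.stabilizer (MulAut G) L := by
  classical
  have hLt : L ≠ ⊤ := fun h => hp.out.ne_one (by rw [← hL, h, Subgroup.index_top])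
  haveI := Fintype.ofFinite (G ⧸ L)
  haveI : FaithfulSMul G (G ⧸ L) := ⟨fun {g₁ g₂} h => toPerm_injective hLt (Equiv.ext h)⟩
  set o : G ⧸ L := QuotientGroup.mk 1
  have h2 := two_pretransitive hns hL
  have hst : stabilizer G o = L := MulAction.stabilizer_quotient L
  have hHall : (Nat.card (stabilizer G o)).Coprime (stabilizer G o).index := by
    rw [hst, hL]
    exact ((hp.out.coprime_iff_not_dvd).2 (not_dvd_card hL)).symm
  obtain ⟨σ, hσ⟩ := TwistedIncidence.exists_perm h2 o a ha o
    (TwistedIncidence.coprime_orbit_of_hall h2 o a hHall)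
  obtain ⟨g0, hg0⟩ := QuotientGroup.mk_surjective (σ o)
  have hle : L.map a.toMonoidHom ≤ MulAut.conj g0 • L := by
    rintro _ ⟨l, hl, rfl⟩
    have h1 := hσ l o
    rw [show l • o = o from mem_stabilizer_iff.1 (hst.symm ▸ hl), ← hg0] at h1
    have h3 : (QuotientGroup.mk (a l * g0) : G ⧸ L) = QuotientGroup.mk g0 := h1
    rw [QuotientGroup.eq] at h3
    rw [Subgroup.mem_pointwise_smul_iff_inv_smul_mem]
    show (MulAut.conj g0)⁻¹ (a l) ∈ L
    rw [← map_inv, MulAut.conj_apply, inv_inv]
    have h5 := L.inv_mem h3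
    simpa [mul_assoc] using h5
  have heq : L.map a.toMonoidHom = MulAut.conj g0 • L := by
    refine Subgroup.eq_of_le_of_card_ge hle (le_of_eq ?_)
    rw [Subgroup.card_map_of_injective (f := a.toMonoidHom) a.injective]
    exact Nat.card_congr (Subgroup.equivSMul (MulAut.conj g0) L).toEquiv.symm
  have hmem : (MulAut.conj g0)⁻¹ * a ∈ MulAction.stabilizer (MulAut G) L := by
    rw [mem_stabilizer_iff, mul_smul, inv_smul_eq_iff, Subgroup.pointwise_smul_def, ← heq]
    rfl
  have : a = MulAut.conj g0 * ((MulAut.conj g0)⁻¹ * a) := (mul_inv_cancel_left _ _).symm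
  rw [this]
  exact mul_mem (mem_sup_left ⟨g0, rfl⟩) (mem_sup_right hmem)

/-- The image of the stabilizer of a subgroup of index `p` in `Out(G)` is solvable. -/
theorem solvable_map_stabilizer {p : ℕ} [hp : Fact p.Prime] {H : Subgroup G} (hH : H.index = p) :
    Group.IsSolvable ((MulAction.stabilizer (MulAut G) H).map (QuotientGroup.mk' (Inn G))) := by
  classical
  have hHt : H ≠ ⊤ := fun h => hp.out.ne_one (by rw [← hH, h, Subgroup.index_top])
  haveI := Fintype.ofFinite (G ⧸ H)
  set ι := MulAction.toPermHom G (G ⧸ H) with hι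
  have hinj := toPerm_injective hHt
  set T := MulAction.stabilizer (MulAut G) H
  have hTmem : ∀ (a : T) (x : G), x ∈ H → (a : MulAut G) x ∈ H := by
    intro a x hx
    have h1 : (a : MulAut G) • H = H := a.2
    rw [← h1]
    exact Subgroup.smul_mem_pointwise_smul x _ H hx
  -- the permutation induced by an element of the stabilizer
  have hwd : ∀ (a : T) (x y : G), (QuotientGroup.mk x : G ⧸ H) = QuotientGroup.mk y →
      (QuotientGroup.mk ((a : MulAut G) x) : G ⧸ H) = QuotientGroup.mk ((a : MulAut G) y) := by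
    intro a x y h
    rw [QuotientGroup.eq] at h ⊢
    rw [← map_inv, ← map_mul]
    exact hTmem a _ h
  let s : T → (G ⧸ H → G ⧸ H) := fun a => Quotient.lift
    (fun x => (QuotientGroup.mk ((a : MulAut G) x) : G ⧸ H)) fun x y h => hwd a x y (Quotient.sound h)
  have hs : ∀ (a : T) (x : G), s a (QuotientGroup.mk x) = QuotientGroup.mk ((a : MulAut G) x) :=
    fun a x => rfl
  have hs1 : ∀ q, s 1 q = q := fun q => QuotientGroup.induction_on q fun x => rfl
  have hsm : ∀ a b q, s (a * b) q = s a (s b q) := fun a b q => QuotientGroup.induction_on q fun x => rfl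
  let act : MulAction T (G ⧸ H) := { smul := s, one_smul := hs1, mul_smul := hsm }
  let σ : T →* Equiv.Perm (G ⧸ H) := @MulAction.toPermHom T (G ⧸ H) _ act
  have hσ : ∀ (a : T) (x : G), σ a * ι x = ι ((a : MulAut G) x) * σ a := by
    intro a x
    refine Equiv.ext fun q => QuotientGroup.induction_on q fun y => ?_
    show s a (QuotientGroup.mk (x * y)) = ((a : MulAut G) x) • s a (QuotientGroup.mk y)
    rw [hs, hs, map_mul]
    rfl
  set N := Subgroup.normalizer ((ι.range : Subgroup (Equiv.Perm (G ⧸ H))) : Set (Equiv.Perm (G ⧸ H)))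
  have hσN : ∀ a, σ a ∈ N := by
    intro a
    rw [Subgroup.mem_normalizer_iff]
    intro q
    constructor
    · rintro ⟨x, rfl⟩
      exact ⟨(a : MulAut G) x, by rw [eq_mul_inv_iff_mul_eq]; exact (hσ a x).symm⟩
    · rintro ⟨x, hx⟩
      refine ⟨(a : MulAut G).symm x, ?_⟩
      have h1 := hσ a ((a : MulAut G).symm x)
      rw [show (a : MulAut G) ((a : MulAut G).symm x) = x from MulEquiv.apply_symm_apply _ x, hx] at h1
      rw [mul_assoc (σ a * q), inv_mul_cancel, mul_one] at h1
      exact mul_left_cancel h1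
  set R : Subgroup N := ι.range.subgroupOf N
  haveI : R.Normal := Subgroup.normal_in_normalizer
  -- solvability of `N / R`
  obtain ⟨P⟩ : Nonempty (Sylow p R) := inferInstance
  have hsupP := Sylow.normalizer_sup_eq_top P
  set Q : Subgroup N := (P : Subgroup R).map R.subtype with hQdef
  set Q' : Subgroup (Equiv.Perm (G ⧸ H)) := Q.map N.subtype with hQ'def
  have hcardR : Nat.card R = Nat.card G := by
    rw [Nat.card_congr (Subgroup.subgroupOfEquivOfLe Subgroup.le_normalizer).toEquiv]
    exact (Nat.card_congr (MonoidHom.ofInjective hinj).toEquiv).symm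
  have hPcard : Nat.card (P : Subgroup R) = p := by
    obtain ⟨n, hn⟩ := IsPGroup.iff_card.mp P.isPGroup'
    have h2 := Subgroup.card_subgroup_dvd_card (P : Subgroup R)
    rw [hn, hcardR] at h2
    rw [hn]
    have hndvd := not_dvd_card hH
    rcases Nat.lt_trichotomy n 1 with h | h | h
    · exfalso
      apply P.not_dvd_index
      have h3 := (P : Subgroup R).card_mul_index
      rw [hn, Nat.lt_one_iff.1 h, pow_zero, one_mul, hcardR] at h3
      rw [h3, ← H.card_mul_index, hH]
      exact dvd_mul_left p _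
    · rw [h, pow_one]
    · exfalso
      apply hndvd
      have h3 : p * p ∣ Nat.card G := by
        refine Dvd.dvd.trans ?_ h2
        rw [← pow_two]; exact pow_dvd_pow p h
      rw [← H.card_mul_index, hH] at h3
      exact Nat.dvd_of_mul_dvd_mul_right hp.out.pos h3
  have hQ' : Nat.card Q' = p := by
    rw [hQ'def, Subgroup.card_map_of_injective N.subtype_injective, hQdef,
      Subgroup.card_map_of_injective R.subtype_injective, hPcard]
  have hcard : Fintype.card (G ⧸ H) = p := by
    rw [← Nat.card_eq_fintype_card, ← Subgroup.index_eq_card, hH]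
  haveI : IsPretransitive Q' (G ⧸ H) := by
    obtain ⟨q, hq⟩ : ∃ q : G ⧸ H, ∃ z : Q', z • q ≠ q := by
      by_contra hcon
      push Not at hcon
      have : Q' = ⊥ := by
        rw [eq_bot_iff]
        intro z hz
        exact Subgroup.mem_bot.2 (Equiv.ext fun q => hcon q ⟨z, hz⟩)
      rw [this, Subgroup.card_bot] at hQ'
      exact hp.out.ne_one hQ'.symm
    have h1 : Nat.card (orbit Q' q) ∣ p := by
      rw [Nat.card_coe_set_eq, ← index_stabilizer, ← hQ']
      exact Subgroup.index_dvd_card _
    rcases (Nat.dvd_prime hp.out).1 h1 with h | h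
    · exfalso
      obtain ⟨z, hz⟩ := hq
      obtain ⟨hs, -⟩ := Nat.card_eq_one_iff_unique.1 h
      exact hz (congrArg Subtype.val (hs.elim ⟨z • q, mem_orbit q z⟩ ⟨q, mem_orbit_self q⟩))
    · have huniv : orbit Q' q = Set.univ := by
        apply Set.eq_of_subset_of_ncard_le (Set.subset_univ _)
        rw [Set.ncard_univ, Nat.card_eq_fintype_card, hcard, ← Nat.card_coe_set_eq, h]
      refine ⟨fun x y => ?_⟩
      obtain ⟨a, ha⟩ := (huniv.symm ▸ Set.mem_univ x : x ∈ orbit Q' q)
      obtain ⟨b, hb⟩ := (huniv.symm ▸ Set.mem_univ y : y ∈ orbit Q' q)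
      exact ⟨b * a⁻¹, by rw [← ha, ← hb]; simp [mul_smul]⟩
  haveI := solvable_normalizer hcard Q' hQ'
  haveI hNR : Group.IsSolvable (N ⧸ R) := by
    let f : Subgroup.normalizer (Q : Set N) →* N ⧸ R :=
      (QuotientGroup.mk' R).comp (Subgroup.normalizer (Q : Set N)).subtype
    have hf : Function.Surjective f := by
      intro y
      obtain ⟨x, rfl⟩ := QuotientGroup.mk'_surjective R y
      have hx : x ∈ Subgroup.normalizer (Q : Set N) ⊔ R := hsupP ▸ Subgroup.mem_top x
      obtain ⟨u, hu, v, hv, rfl⟩ := Subgroup.mem_sup_of_normal_right.1 hx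
      refine ⟨⟨u, hu⟩, ?_⟩
      show QuotientGroup.mk' R u = QuotientGroup.mk' R (u * v)
      rw [map_mul, show QuotientGroup.mk' R v = 1 from (QuotientGroup.eq_one_iff v).2 hv, mul_one]
    haveI : Group.IsSolvable (Subgroup.normalizer (Q : Set N)) := by
      refine Group.isSolvable_of_isSolvable_injective
        (f := ((N.subtype.comp (Subgroup.normalizer (Q : Set N)).subtype).codRestrict
          (Subgroup.normalizer (Q' : Set (Equiv.Perm (G ⧸ H)))) ?_)) ?_
      · intro u
        exact Subgroup.le_normalizer_map N.subtype ⟨_, u.2, rfl⟩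
      · intro u v huv
        exact Subtype.ext (Subtype.ext (congrArg Subtype.val huv :))
    exact Group.isSolvable_of_surjective hf
  set τ : T →* N ⧸ R := (QuotientGroup.mk' R).comp (σ.codRestrict N hσN)
  set θ : T →* T.map (QuotientGroup.mk' (Inn G)) := (QuotientGroup.mk' (Inn G)).subgroupMap T
  have hker : τ.ker ≤ θ.ker := by
    intro a ha
    have ha' : σ a ∈ ι.range := (QuotientGroup.eq_one_iff (N := R) (σ.codRestrict N hσN a)).1 ha
    obtain ⟨g, hg⟩ := ha'
    rw [MonoidHom.mem_ker]
    refine Subtype.ext ?_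
    show QuotientGroup.mk' (Inn G) (a : MulAut G) = 1
    rw [QuotientGroup.mk'_apply, QuotientGroup.eq_one_iff]
    refine ⟨g, MulEquiv.ext fun x => ?_⟩
    rw [MulAut.conj_apply]
    apply hinj
    rw [map_mul, map_mul, map_inv, hg, hσ a x, mul_inv_cancel_right]
  haveI : Group.IsSolvable (T ⧸ τ.ker) :=
    Group.isSolvable_of_isSolvable_injective (f := QuotientGroup.kerLift τ) (QuotientGroup.kerLift_injective τ)
  exact Group.isSolvable_of_surjective (f := QuotientGroup.lift τ.ker θ hker) (fun y => by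
    obtain ⟨a, rfl⟩ := (QuotientGroup.mk' (Inn G)).subgroupMap_surjective T y
    exact ⟨QuotientGroup.mk a, rfl⟩)

theorem out_solvable (H : Subgroup G) (hH : H.index.Prime) : Group.IsSolvable (Cfsg.Out G) := by
  classical
  haveI := Fact.mk hH
  by_cases hns : Group.IsSolvable G
  · haveI := hns
    haveI : IsCyclic G :=
      @IsSimpleGroup.isCyclic G { ‹Group G› with mul_comm := IsSimpleGroup.comm_iff_isSolvable.mpr inferInstance } _
    haveI := solvable_mulAut_of_cyclic (G := G)
    exact Group.isSolvable_of_surjective (f := QuotientGroup.mk' (Inn G)) (QuotientGroup.mk'_surjective _)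
  set p := H.index with hp
  set K : Subgroup (MulAut G) :=
    ⨅ L : {L : Subgroup G // L.index = p}, Inn G ⊔ MulAction.stabilizer (MulAut G) (L : Subgroup G) with hK
  have hmemK : ∀ a, a ∈ K ↔ ∀ L : Subgroup G, L.index = p → a ∈ Inn G ⊔ MulAction.stabilizer (MulAut G) L := by
    intro a; simp [hK]
  haveI hKn : K.Normal := ⟨fun a ha x => by
    rw [hmemK] at ha ⊢
    intro L hL
    have hL' : (x⁻¹ • L).index = p := by
      rw [show x⁻¹ • L = L.map (x⁻¹ : MulAut G).toMonoidHom from rfl]
      exact (Subgroup.index_map_equiv L (x⁻¹ : MulAut G)).trans hL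
    obtain ⟨i, hi, t, ht, rfl⟩ := Subgroup.mem_sup_of_normal_left.1 (ha _ hL')
    rw [show x * (i * t) * x⁻¹ = (x * i * x⁻¹) * (x * t * x⁻¹) by group]
    refine mul_mem (mem_sup_left ((inferInstance : (Inn G).Normal).conj_mem i hi x)) (mem_sup_right ?_)
    rw [mem_stabilizer_iff] at ht ⊢
    rw [mul_smul, mul_smul, ht, smul_inv_smul]⟩
  haveI : Finite (MulAut G) := Finite.of_injective (fun e : MulAut G => (e : G → G)) DFunLike.coe_injective
  haveI hq : Group.IsSolvable (MulAut G ⧸ K) := by
    have h2 : IsPGroup 2 (MulAut G ⧸ K) := by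
      intro y
      obtain ⟨a, rfl⟩ := QuotientGroup.mk'_surjective K y
      obtain ⟨i, m, hm, ho⟩ := Nat.exists_eq_two_pow_mul_odd (orderOf_pos a).ne'
      refine ⟨i, ?_⟩
      rw [← map_pow]
      refine (QuotientGroup.eq_one_iff _).2 ((hmemK _).2 fun L hL => odd_fixes_class hns hL _ ?_)
      rw [orderOf_pow, ho, Nat.gcd_eq_right (Dvd.intro m rfl), Nat.mul_div_cancel_left _ (by positivity)]
      exact hm
    haveI := h2.isNilpotent
    infer_instance
  set π := QuotientGroup.mk' (Inn G)
  haveI : (K.map π).Normal := hKn.map π (QuotientGroup.mk'_surjective _)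
  have hKT : K.map π ≤ (MulAction.stabilizer (MulAut G) H).map π := by
    rintro _ ⟨a, ha, rfl⟩
    obtain ⟨i, hi, t, ht, rfl⟩ := Subgroup.mem_sup_of_normal_left.1 ((hmemK a).1 ha H rfl)
    rw [map_mul, show π i = 1 from (QuotientGroup.eq_one_iff i).2 hi, one_mul]
    exact Subgroup.mem_map_of_mem π ht
  haveI := solvable_map_stabilizer (G := G) (H := H) hp.symm
  haveI : Group.IsSolvable (K.map π) :=
    Group.isSolvable_of_isSolvable_injective (Subgroup.inclusion_injective hKT)
  haveI : Group.IsSolvable ((MulAut G ⧸ Inn G) ⧸ K.map π) :=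
    Group.isSolvable_of_surjective (f := QuotientGroup.map K (K.map π) π (Subgroup.le_comap_map π K)) (by
      intro y
      obtain ⟨y, rfl⟩ := QuotientGroup.mk'_surjective _ y
      obtain ⟨a, rfl⟩ := QuotientGroup.mk'_surjective _ y
      exact ⟨QuotientGroup.mk a, rfl⟩)
  exact Group.isSolvable_of_ker_le_range (K.map π).subtype (QuotientGroup.mk' (K.map π))
    (by rw [QuotientGroup.ker_mk', Subgroup.range_subtype])

end Cfsg.Agent.FGS4.SchreierPrime
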