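/-
No finite group has exactly fifteen Sylow 7-subgroups.

A minimal counterexample acts faithfully on its 15 Sylow 7-subgroups.  If 49 divides the order,
double counting the orbits of the Sylow subgroups gives `56 ∣ 210`.  Otherwise the order divides
1260, and Burnside transfer and coprime action finish.
-/
import Mathlib
import Cfsg.Agent.FGS4.SylowNumber
import Cfsg.Agent.Coprime.Action
import Cfsg.Agent.SmallOrder.Basic
import Cfsg.Agent.Transfer.Thompson

set_option autoImplicit false
set_option linter.style.haveILetI false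

namespace Cfsg.Agent.FGS4.Seven

open Subgroup MulAction

universe u

variable {G : Type u} [Group G] [Finite G]

local instance : Fact (Nat.Prime 7) := ⟨by norm_num⟩
local instance : Fact (Nat.Prime 5) := ⟨by norm_num⟩

theorem mem_of_fixes (R : Sylow 7 G) {Y : Subgroup G} (hY : IsPGroup 7 Y)
    (h : ∀ y ∈ Y, y • R = R) : Y ≤ (R : Subgroup G) :=
  hY.sylow_mem_fixedPoints_iff.mp fun y => h y y.2

/-- If `A` normalizes `F`, then `[A : C_A(F)]` divides `[N(F) : C(F)]`. -/
theorem relIndex_centralizer_dvd {A F : Subgroup G}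
    (h : A ≤ Subgroup.normalizer (F : Set G)) :
    (Subgroup.centralizer (F : Set G)).relIndex A ∣
      (Subgroup.centralizer (F : Set G)).relIndex (Subgroup.normalizer (F : Set G)) := by
  haveI : ((Subgroup.centralizer (F : Set G)).subgroupOf (Subgroup.normalizer (F : Set G))).Normal := by
    rw [← F.normalizerMonoidHom_ker]; infer_instance
  rw [← relIndex_subgroupOf h]
  exact relIndex_dvd_index_of_normal _ _

variable (h15 : Nat.card (Sylow 7 G) = 15)

include h15

theorem card_orbit {P a : Sylow 7 G} (h : a ≠ P) :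
    (orbit (P : Subgroup G) a).ncard = 7 := by
  obtain ⟨n, hn⟩ := P.2.card_orbit a
  have hle : (orbit (P : Subgroup G) a).ncard ≤ 15 := h15 ▸ Set.ncard_le_card _
  rw [← Nat.card_coe_set_eq, hn] at hle ⊢
  rcases n with _ | _ | n
  · exfalso
    have hsub : (orbit (P : Subgroup G) a).Subsingleton := by
      rw [← Set.ncard_le_one_iff_subsingleton, ← Nat.card_coe_set_eq, hn]; norm_num
    apply h
    refine (sylow_eq_of_le (mem_of_fixes a P.2 fun y hy => ?_)).symm
    exact hsub (mem_orbit a (⟨y, hy⟩ : (P : Subgroup G))) (mem_orbit_self a)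
  · norm_num
  · exfalso
    have : (7 : ℕ) ^ 2 ≤ 7 ^ (n + 1 + 1) := Nat.pow_le_pow_right (by norm_num) (by omega)
    omega

theorem notMem_orbit {P a : Sylow 7 G} (h : a ≠ P) : P ∉ orbit (P : Subgroup G) a := by
  intro hP
  obtain ⟨y, hy⟩ := mem_orbit_symm.mp hP
  have : (y : G) • P = P := Sylow.smul_eq_iff_mem_normalizer.mpr (Subgroup.le_normalizer y.2)
  exact h (hy.symm.trans this)

/-- Apart from `P`, there are exactly two orbits of `P`. -/
theorem mem_orbit_or {P a b c : Sylow 7 G} (ha : a ≠ P) (hb : b ≠ P)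
    (hab : b ∉ orbit (P : Subgroup G) a) (hc : c ≠ P) :
    c ∈ orbit (P : Subgroup G) a ∨ c ∈ orbit (P : Subgroup G) b := by
  by_contra hcon
  push Not at hcon
  obtain ⟨h1, h2⟩ := hcon
  have hd : Disjoint (orbit (P : Subgroup G) a) (orbit (P : Subgroup G) b) := by
    rw [Set.disjoint_left]
    intro z hz hz'
    exact hab (by rw [← orbit_eq_iff.mpr hz, orbit_eq_iff.mpr hz']; exact mem_orbit_self b)
  have hu := Set.ncard_union_eq hd
  rw [card_orbit h15 ha, card_orbit h15 hb] at hu
  have hP : P ∉ insert c (orbit (P : Subgroup G) a ∪ orbit (P : Subgroup G) b) := by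
    rintro (h | h | h)
    · exact hc h.symm
    · exact notMem_orbit h15 ha h
    · exact notMem_orbit h15 hb h
  have hcU : c ∉ orbit (P : Subgroup G) a ∪ orbit (P : Subgroup G) b := fun h => h.elim h1 h2
  have := Set.ncard_le_card
    (insert P (insert c (orbit (P : Subgroup G) a ∪ orbit (P : Subgroup G) b)))
  rw [Set.ncard_insert_of_notMem hP, Set.ncard_insert_of_notMem hcU, hu, h15] at this
  omega

theorem exists_notMem_orbit {P a : Sylow 7 G} (ha : a ≠ P) :
    ∃ b, b ≠ P ∧ b ∉ orbit (P : Subgroup G) a := by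
  by_contra hcon
  push Not at hcon
  have h := Set.ncard_le_ncard
    (show (Set.univ : Set (Sylow 7 G)) ⊆ insert P (orbit (P : Subgroup G) a) from fun z _ => by
      by_cases hz : z = P
      · exact Or.inl hz
      · exact Or.inr (hcon z hz))
  rw [Set.ncard_univ, h15, Set.ncard_insert_of_notMem (notMem_orbit h15 ha), card_orbit h15 ha] at h
  omega

variable (hfaith : ∀ g : G, (∀ R : Sylow 7 G, g • R = R) → g = 1)

include hfaith

/-- If `49 ∣ |P|`, every orbit `O` of a Sylow subgroup is an orbit of all Sylow subgroups not in `O`. -/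
theorem orbit_eq_of_notMem {P b : Sylow 7 G} (h49 : 49 ∣ Nat.card (P : Subgroup G)) (hb : b ≠ P)
    {Q : Sylow 7 G} (hQ : Q ∉ orbit (P : Subgroup G) b) :
    orbit (Q : Subgroup G) b = orbit (P : Subgroup G) b := by
  obtain ⟨a, ha, hab⟩ := exists_notMem_orbit h15 hb
  set S := stabilizer (P : Subgroup G) a with hS
  have hba : b ∉ orbit (P : Subgroup G) a := fun h => hab (mem_orbit_symm.mp h)
  have hidx : S.index = 7 := by
    rw [hS, index_stabilizer]; exact card_orbit h15 ha
  obtain ⟨k, hk⟩ := IsPGroup.iff_card.mp P.2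
  have hk2 : k ≠ 0 := by
    rintro rfl; rw [hk] at h49; norm_num at h49
  have hSn : S.Normal := Subgroup.normal_of_index_eq_minFac_card
    (by rw [hidx, hk, Nat.pow_minFac hk2, Nat.Prime.minFac_eq (by norm_num : Nat.Prime 7)])
  have hfix : ∀ s ∈ S, ∀ z ∈ orbit (P : Subgroup G) a, s • z = z := by
    rintro s hs _ ⟨y, rfl⟩
    have h1 : y⁻¹ * s * y⁻¹⁻¹ ∈ S := hSn.conj_mem s hs y⁻¹
    rw [inv_inv, hS, mem_stabilizer_iff, mul_smul, mul_smul, inv_smul_eq_iff] at h1
    exact h1
  have hSbot : S ≠ ⊥ := by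
    intro h
    rw [h, index_bot] at hidx
    rw [hidx] at h49
    norm_num at h49
  obtain ⟨⟨s, hs⟩, hs1'⟩ := ne_bot_iff_exists_ne_one.mp hSbot
  have hs1 : s ≠ 1 := fun h => hs1' (Subtype.ext h)
  have hP : ∀ y : (P : Subgroup G), (y : G) • P = P := fun y =>
    Sylow.smul_eq_iff_mem_normalizer.mpr (Subgroup.le_normalizer y.2)
  obtain ⟨c, hcmem, hc⟩ : ∃ c ∈ orbit (P : Subgroup G) b, (s : G) • c ≠ c := by
    by_contra hcon
    push Not at hcon
    refine hs1 (Subtype.ext (hfaith s fun R => ?_))
    by_cases hR : R = P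
    · rw [hR]; exact hP s
    · rcases mem_orbit_or h15 ha hb hba hR with h | h
      · exact hfix s hs R h
      · exact hcon R h
  have hcP : c ≠ P := fun h => hc (h ▸ hP s)
  -- `s` lies in every Sylow subgroup outside the orbit of `b`
  have hsQ : (s : G) ∈ Q := by
    have hz : IsPGroup 7 (zpowers (s : G)) := P.2.to_le (zpowers_le.mpr s.2)
    refine mem_of_fixes Q hz ?_ (mem_zpowers _)
    have hsQ' : (s : G) • Q = Q := by
      by_cases hR : Q = P
      · rw [hR]; exact hP s
      · exact hfix s hs Q ((mem_orbit_or h15 ha hb hba hR).resolve_right hQ)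
    intro y hy
    have : zpowers (s : G) ≤ stabilizer G Q := zpowers_le.mpr hsQ'
    exact this hy
  set Z := zpowers s with hZ
  have hZp : IsPGroup 7 Z := P.2.to_subgroup Z
  -- the orbit of `c` under `s` is the whole orbit of `b`
  have hZsub : orbit Z c ⊆ orbit (P : Subgroup G) b := by
    rintro _ ⟨z, rfl⟩
    rw [← orbit_eq_iff.mpr hcmem]
    exact mem_orbit c (z : (P : Subgroup G))
  obtain ⟨n, hn⟩ := hZp.card_orbit c
  have hn0 : n ≠ 0 := by
    rintro rfl
    have hsub : (orbit Z c).Subsingleton := by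
      rw [← Set.ncard_le_one_iff_subsingleton, ← Nat.card_coe_set_eq, hn]; norm_num
    exact hc (hsub (mem_orbit c (⟨s, mem_zpowers s⟩ : Z)) (mem_orbit_self c))
  have hZeq : orbit Z c = orbit (P : Subgroup G) b := by
    refine Set.eq_of_subset_of_ncard_le hZsub ?_
    rw [card_orbit h15 hb, ← Nat.card_coe_set_eq, hn]
    exact le_of_eq_of_le (pow_one 7).symm (Nat.pow_le_pow_right (by norm_num) (Nat.pos_of_ne_zero hn0))
  have hcQ : c ≠ Q := fun h => hQ (h ▸ hcmem)
  have hsubQ : orbit (P : Subgroup G) b ⊆ orbit (Q : Subgroup G) c := by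
    rw [← hZeq]
    rintro _ ⟨⟨z, hz⟩, rfl⟩
    obtain ⟨i, rfl⟩ := hz
    exact mem_orbit c (⟨((s ^ i : (P : Subgroup G)) : G), by
      rw [Subgroup.coe_zpow]; exact zpow_mem hsQ i⟩ : (Q : Subgroup G))
  have heq : orbit (P : Subgroup G) b = orbit (Q : Subgroup G) c :=
    Set.eq_of_subset_of_ncard_le hsubQ (by rw [card_orbit h15 hb, card_orbit h15 hcQ])
  rw [heq]
  exact orbit_eq_iff.mpr (heq ▸ mem_orbit_self b)

theorem not_fortynine_dvd (P : Sylow 7 G) : ¬ 49 ∣ Nat.card (P : Subgroup G) := by
  classical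
  intro h49
  haveI := Fintype.ofFinite (Sylow 7 G)
  have hall : ∀ R : Sylow 7 G, 49 ∣ Nat.card (R : Subgroup G) := fun R => by
    rwa [Sylow.card_eq_multiplicity, ← Sylow.card_eq_multiplicity P]
  let f : Sylow 7 G × Sylow 7 G → Finset (Sylow 7 G) :=
    fun x => (orbit (x.1 : Subgroup G) x.2).toFinset
  set D := (Finset.univ : Finset (Sylow 7 G)).offDiag with hD
  have hDcard : D.card = 210 := by
    rw [hD, Finset.offDiag_card, Finset.card_univ, ← Nat.card_eq_fintype_card, h15]
  have hfib : ∀ O ∈ D.image f, (D.filter fun x => f x = O).card = 56 := by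
    intro O hO
    obtain ⟨⟨R, b⟩, hx, rfl⟩ := Finset.mem_image.mp hO
    have hne : b ≠ R := fun h => (Finset.mem_offDiag.mp hx).2.2 h.symm
    have hcard : (f (R, b)).card = 7 :=
      (Set.ncard_eq_toFinset_card' _).symm.trans (card_orbit h15 hne)
    have : (D.filter fun x => f x = f (R, b)) = (f (R, b))ᶜ ×ˢ f (R, b) := by
      ext ⟨Q, a⟩
      simp only [Finset.mem_filter, Finset.mem_product, Finset.mem_compl, hD,
        Finset.mem_offDiag, Finset.mem_univ, true_and]
      constructor
      · rintro ⟨hQa, he⟩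
        rw [← he]
        simp only [f, Set.mem_toFinset]
        exact ⟨notMem_orbit h15 (Ne.symm hQa), mem_orbit_self a⟩
      · rintro ⟨hQ, ha⟩
        simp only [f, Set.mem_toFinset] at hQ ha
        refine ⟨fun h => hQ (h ▸ ha), ?_⟩
        have haR : a ≠ R := fun h => notMem_orbit h15 hne (h ▸ ha)
        have h1 := orbit_eq_iff.mpr ha
        rw [← h1] at hQ
        simp only [f, Set.toFinset_inj]
        rw [orbit_eq_of_notMem h15 hfaith (hall R) haR hQ, h1]
    rw [this, Finset.card_product, Finset.card_compl, hcard, ← Nat.card_eq_fintype_card, h15]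
  have h := Finset.card_eq_sum_card_image f D
  rw [Finset.sum_congr rfl hfib, Finset.sum_const, smul_eq_mul, hDcard] at h
  omega

theorem eq_one_of_commute_fixes {P : Sylow 7 G} (h7 : Nat.card (P : Subgroup G) = 7) {c : G}
    (hc : c ∈ Subgroup.centralizer ((P : Subgroup G) : Set G)) {a : Sylow 7 G} (ha : a ≠ P)
    (hca : c • a = a) : c = 1 := by
  obtain ⟨b, hb, hba⟩ := exists_notMem_orbit h15 ha
  have hcomm : ∀ y : (P : Subgroup G), ∀ z : Sylow 7 G, c • y • z = y • c • z := by
    intro y z
    change c • (y : G) • z = (y : G) • c • z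
    rw [← mul_smul, ← mul_smul, Subgroup.mem_centralizer_iff.mp hc (y : G) y.2]
  have hcP : c • P = P :=
    Sylow.smul_eq_iff_mem_normalizer.mpr ((centralizer_le_normalizer _) hc)
  have hfixA : ∀ z ∈ orbit (P : Subgroup G) a, c • z = z := by
    rintro _ ⟨y, rfl⟩
    rw [hcomm, hca]
  have hcb : c • b ∈ orbit (P : Subgroup G) b := by
    refine (mem_orbit_or h15 ha hb hba fun h => hb ((MulAction.injective c) (h.trans hcP.symm))).resolve_left
      fun h => hba ?_
    have := hfixA _ h
    rwa [MulAction.injective c this] at h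
  obtain ⟨y, hy⟩ := hcb
  have hpow : ∀ i : ℕ, c ^ i • b = y ^ i • b := by
    intro i
    induction i with
    | zero => simp
    | succ i ih => rw [pow_succ', mul_smul, ih, hcomm, ← hy, ← mul_smul, ← pow_succ]
  have hy7 : y ^ 7 = 1 := orderOf_dvd_iff_pow_eq_one.mp ((orderOf_dvd_natCard y).trans h7.dvd)
  have hc7 : c ^ 7 = 1 := hfaith _ fun R => by
    by_cases hR : R = P
    · rw [hR]
      exact (stabilizer G P).pow_mem hcP 7
    · rcases mem_orbit_or h15 ha hb hba hR with h | h
      · exact (stabilizer G R).pow_mem (hfixA R h) 7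
      · obtain ⟨z, rfl⟩ := h
        change c ^ 7 • (z : G) • b = (z : G) • b
        rw [← mul_smul, ← Subgroup.mem_centralizer_iff.mp (pow_mem hc 7) (z : G) z.2, mul_smul,
          hpow, hy7, one_smul]
  have hcmem : c ∈ P := by
    have hz : IsPGroup 7 (zpowers c) := by
      rintro ⟨g, i, rfl⟩
      refine ⟨1, Subtype.ext ?_⟩
      rw [pow_one, Subgroup.coe_pow, ← zpow_natCast, ← zpow_mul, mul_comm, zpow_mul, zpow_natCast,
        hc7, one_zpow, Subgroup.coe_one]
    refine mem_of_fixes P hz (fun y hy => ?_) (mem_zpowers _)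
    exact (zpowers_le.mpr (show c ∈ stabilizer G P from hcP)) hy
  have hst : stabilizer (P : Subgroup G) a = ⊥ := by
    apply Subgroup.eq_bot_of_card_eq
    have h := card_mul_index (stabilizer (P : Subgroup G) a)
    rw [index_stabilizer, card_orbit h15 ha, h7] at h
    omega
  have : (⟨c, hcmem⟩ : (P : Subgroup G)) ∈ stabilizer (P : Subgroup G) a := hca
  rw [hst, mem_bot] at this
  exact congrArg Subtype.val this

theorem card_centralizer_cases {P : Sylow 7 G} (h7 : Nat.card (P : Subgroup G) = 7) :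
    Nat.card (Subgroup.centralizer ((P : Subgroup G) : Set G)) = 7 ∨
      Nat.card (Subgroup.centralizer ((P : Subgroup G) : Set G)) = 14 := by
  set C := Subgroup.centralizer ((P : Subgroup G) : Set G) with hC
  obtain ⟨a, ha⟩ : ∃ a : Sylow 7 G, a ≠ P := by
    haveI : Nontrivial (Sylow 7 G) := by
      rw [← Finite.one_lt_card_iff_nontrivial, h15]; norm_num
    exact exists_ne P
  have hPC : (P : Subgroup G) ≤ C := by
    haveI : IsCyclic (P : Subgroup G) := isCyclic_of_prime_card h7
    exact Subgroup.le_centralizer _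
  have hd : 7 ∣ Nat.card C := h7 ▸ Subgroup.card_dvd_of_le hPC
  have hinj : Function.Injective (fun c : C => (⟨(c : G) • a, fun h => ha ((MulAction.injective (c : G))
      (h.trans (Sylow.smul_eq_iff_mem_normalizer.mpr (centralizer_le_normalizer _ c.2)).symm))⟩ :
        ({P}ᶜ : Set (Sylow 7 G)))) := by
    intro c d h
    have h' : (c : G) • a = (d : G) • a := congrArg Subtype.val h
    have : ((c⁻¹ * d : C) : G) = 1 :=
      eq_one_of_commute_fixes h15 hfaith h7 (c⁻¹ * d).2 ha (by
        rw [Subgroup.coe_mul, mul_smul, ← h', Subgroup.coe_inv, inv_smul_smul])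
    exact inv_mul_eq_one.mp (Subtype.ext this)
  have hle := Nat.card_le_card_of_injective _ hinj
  rw [Nat.card_coe_set_eq, Set.ncard_compl, Set.ncard_singleton, h15] at hle
  have := Nat.card_pos (α := C)
  omega

omit h15 hfaith in
theorem false_of_minimal {G : Type u} [Group G] [Finite G] (h15 : Nat.card (Sylow 7 G) = 15)
    (ih : ∀ (H : Type u) [Group H] [Finite H], Nat.card H < Nat.card G →
      Nat.card (Sylow 7 H) ≠ 15) : False := by
  classical
  obtain ⟨P⟩ := (inferInstance : Nonempty (Sylow 7 G))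
  set NP := Subgroup.normalizer ((P : Subgroup G) : Set G) with hNP
  have hidxN : Nat.card (Sylow 7 G) = NP.index := P.card_eq_index_normalizer
  have hquot : ∀ K : Subgroup G, K.Normal → K ≠ ⊥ →
      (P : Subgroup G) ⊔ K = ⊤ := by
    intro K hK hK0
    have h := card_sylow_eq_quotient_mul K P
    have hKlt : Nat.card (G ⧸ K) < Nat.card G := by
      rw [card_eq_card_quotient_mul_card_subgroup K]
      exact lt_mul_of_one_lt_right Nat.card_pos ((one_lt_card_iff_ne_bot K).mpr hK0)
    have h1 := ih _ hKlt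
    have h2 := card_sylow_modEq_one 7 (G ⧸ K)
    rw [h15] at h
    by_contra hne
    have h3 := ih ↥((P : Subgroup G) ⊔ K)
      (lt_of_le_of_ne (card_le_card_group _) fun e => hne (eq_top_of_card_eq _ e))
    have hdvd : Nat.card (Sylow 7 (G ⧸ K)) ∈ Nat.divisors 15 := Nat.mem_divisors.mpr ⟨⟨_, h⟩, by norm_num⟩
    rw [show Nat.divisors 15 = {1, 3, 5, 15} by decide] at hdvd
    unfold Nat.ModEq at h2
    simp only [Finset.mem_insert, Finset.mem_singleton] at hdvd
    rcases hdvd with e | e | e | e <;> rw [e] at h2 h1 h <;> omega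
  -- the action on Sylow subgroups is faithful
  have hfaith : ∀ g : G, (∀ R : Sylow 7 G, g • R = R) → g = 1 := by
    intro g hg
    by_contra hg1
    set K := (MulAction.toPermHom G (Sylow 7 G)).ker with hK
    have hgK : g ∈ K := by
      rw [hK, MonoidHom.mem_ker]; exact Equiv.ext hg
    have h := hquot K inferInstance fun h0 => hg1 (by rwa [h0, mem_bot] at hgK)
    have hKN : K ≤ NP := fun x hx =>
      Sylow.smul_eq_iff_mem_normalizer.mp (congrArg (fun e : Equiv.Perm (Sylow 7 G) => e P) hx)
    have htop : NP = ⊤ := top_le_iff.mp (h ▸ sup_le Subgroup.le_normalizer hKN)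
    rw [hidxN, htop, index_top] at h15
    omega
  have h49 := not_fortynine_dvd h15 hfaith P
  have hP1 : Nat.card (P : Subgroup G) ≠ 1 := by
    intro h
    haveI : Subsingleton (Sylow 7 G) := ⟨fun a b => by
      have : ∀ R : Sylow 7 G, (R : Subgroup G) = ⊥ := fun R => Subgroup.eq_bot_of_card_eq _ (by
        rw [Sylow.card_eq_multiplicity, ← Sylow.card_eq_multiplicity P, h])
      exact Sylow.ext ((this a).trans (this b).symm)⟩
    rw [Nat.card_of_subsingleton P] at h15
    omega
  have h7 : Nat.card (P : Subgroup G) = 7 := by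
    obtain ⟨k, hk⟩ := IsPGroup.iff_card.mp P.2
    rcases k with _ | _ | k
    · simp [hk] at hP1
    · simpa using hk
    · exact absurd ⟨7 ^ k, by rw [hk, pow_add]; ring⟩ h49
  set C := Subgroup.centralizer ((P : Subgroup G) : Set G) with hCdef
  have hCN : C ≤ NP := centralizer_le_normalizer _
  have hC := card_centralizer_cases h15 hfaith h7
  have hidx : C.relIndex NP ∣ 6 :=
    SmallOrder.relIndex_centralizer_dvd_sub_one (p := 7) (P : Subgroup G) h7
  have hcardN : Nat.card C * C.relIndex NP = Nat.card NP := by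
    have := relIndex_mul_relIndex ⊥ C NP bot_le hCN
    rwa [relIndex_bot_left, relIndex_bot_left] at this
  have hcardG : Nat.card NP * 15 = Nat.card G := by
    rw [← h15, hidxN, card_mul_index]
  have hN84 : Nat.card NP ∣ 84 := by
    rw [← hcardN, show (84 : ℕ) = 14 * 6 by norm_num]
    exact Nat.mul_dvd_mul (by rcases hC with e | e <;> rw [e] <;> norm_num) hidx
  have h5N : ¬ 5 ∣ Nat.card NP := fun h => by
    have := h.trans hN84; norm_num at this
  -- `7` and `5` cannot commute
  have h5comm : ∀ F : Subgroup G, Nat.card F = 5 → ¬ (P : Subgroup G) ≤ Subgroup.centralizer (F : Set G) :=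
    fun F hF h => h5N (hF ▸ Subgroup.card_dvd_of_le ((le_centralizer_iff.mp h).trans hCN))
  have hsimple : IsSimpleGroup G := by
    haveI : Nontrivial G := by
      rw [← Finite.one_lt_card_iff_nontrivial]
      have := Nat.card_pos (α := NP)
      omega
    refine { eq_bot_or_eq_top_of_normal := fun K hK => ?_ }
    by_contra hcon
    push Not at hcon
    obtain ⟨hK0, hK1⟩ := hcon
    haveI := hK
    have hsup := hquot K hK hK0
    have hKlt : Nat.card K < Nat.card G :=
      lt_of_le_of_ne (card_le_card_group K) fun e => hK1 (eq_top_of_card_eq K e)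
    -- `7 ∤ |K|`
    have hQ : (P : Subgroup G) ⊓ K = ⊥ := by
      by_contra hQ
      have hPK : (P : Subgroup G) ≤ K := by
        have h := Subgroup.card_dvd_of_le (inf_le_left : (P : Subgroup G) ⊓ K ≤ P)
        rw [h7] at h
        rcases (Nat.dvd_prime (by norm_num : Nat.Prime 7)).mp h with e | e
        · exact absurd (Subgroup.card_eq_one.mp e) hQ
        · exact (eq_of_le_of_card_ge (inf_le_left : (P : Subgroup G) ⊓ K ≤ P) (by rw [e, h7])).ge.trans inf_le_right
      exact hK1 (by rw [← hsup, sup_eq_right.mpr hPK])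
    have hPKn : (P : Subgroup G) ≤ Subgroup.normalizer (K : Set G) := by
      rw [normalizer_eq_top]; exact le_top
    have h7K : ¬ 7 ∣ Nat.card K := by
      have h := not_dvd_index_subgroupOf_normal K P
      rwa [show ((P : Subgroup G).subgroupOf K).index = Nat.card K by
        rw [← relIndex_bot_left (H := K), ← hQ, inf_relIndex_right]; rfl] at h
    have hcop : (Nat.card (P : Subgroup G)).Coprime (Nat.card K) := by
      rw [h7]; exact (by norm_num : Nat.Prime 7).coprime_iff_not_dvd.mpr h7K
    haveI := P.2.isNilpotent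
    obtain ⟨F, hFK, hF, hFi, hPF⟩ := Coprime.exists_invariant_sylow hPKn hcop 5
    have h5K : 5 ∣ Nat.card K := by
      have h5G : 5 ∣ Nat.card G := hcardG ▸ ⟨Nat.card NP * 3, by ring⟩
      have hc := Coprime.card_sup hPKn (Coprime.inf_eq_bot_of_coprime hcop)
      rw [sup_comm, hsup, Subgroup.card_top, h7] at hc
      rw [hc] at h5G
      exact (Nat.Coprime.dvd_of_dvd_mul_right (by norm_num) h5G)
    have hF5 : Nat.card F = 5 := by
      have hm : Nat.card F * F.relIndex K = Nat.card K := by
        have := relIndex_mul_relIndex ⊥ F K bot_le hFK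
        rwa [relIndex_bot_left, relIndex_bot_left] at this
      have h5 : 5 ∣ Nat.card F :=
        ((Nat.Prime.dvd_mul (by norm_num)).mp (hm ▸ h5K)).resolve_right hFi
      obtain ⟨j, hj⟩ := IsPGroup.iff_card.mp hF
      have h25 : ¬ 25 ∣ Nat.card G := fun h => by
        have h2 : Nat.card G ∣ 84 * 15 := by rw [← hcardG]; exact Nat.mul_dvd_mul_right hN84 15
        have := h.trans h2; norm_num at this
      rcases j with _ | _ | j
      · rw [hj] at h5; norm_num at h5
      · simpa using hj
      · exact absurd ((Dvd.intro (5 ^ j) (by rw [hj, pow_add]; ring)).trans F.card_subgroup_dvd_card) h25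
    have hd := SmallOrder.relIndex_centralizer_dvd_sub_one (p := 5) F hF5
    have hPd : (Subgroup.centralizer (F : Set G)).relIndex (P : Subgroup G) ∣ 4 :=
      (relIndex_centralizer_dvd hPF).trans hd
    have hP7 : (Subgroup.centralizer (F : Set G)).relIndex (P : Subgroup G) ∣ 7 :=
      (relIndex_dvd_card _ _).trans h7.dvd
    exact h5comm F hF5 (relIndex_eq_one.mp (Nat.eq_one_of_dvd_one (Nat.dvd_gcd hPd hP7)))
  have hnc : ¬ IsMulCommutative G := fun h => by
    have hp := SmallOrder.prime_card_of_comm h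
    have h3 : 3 ∣ Nat.card G := hcardG ▸ ⟨Nat.card NP * 5, by ring⟩
    have := (Nat.prime_dvd_prime_iff_eq (by norm_num : Nat.Prime 3) hp).mp h3
    have := Nat.card_pos (α := NP)
    omega
  haveI := Fintype.ofFinite (Sylow 7 G)
  -- no involution centralizes `P`
  have hC7 : Nat.card C = 7 := by
    refine hC.resolve_right fun h14 => ?_
    haveI : Fact (Nat.Prime 2) := ⟨Nat.prime_two⟩
    obtain ⟨⟨u, huC⟩, hu⟩ := exists_prime_orderOf_dvd_card' (G := C) 2 (by rw [h14]; norm_num)
    rw [Subgroup.orderOf_mk] at hu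
    have hsign := SmallOrder.sign_eq_one hnc (MulAction.toPermHom G (Sylow 7 G)) u
    have hu2 : (MulAction.toPermHom G (Sylow 7 G) u) ^ 2 = 1 := by
      rw [← map_pow, ← hu, pow_orderOf_eq_one, map_one]
    have hfix : Fintype.card (Function.fixedPoints (MulAction.toPermHom G (Sylow 7 G) u)) = 1 := by
      rw [Fintype.card_eq_one_iff]
      refine ⟨⟨P, Sylow.smul_eq_iff_mem_normalizer.mpr (hCN huC)⟩, fun ⟨R, hR⟩ => Subtype.ext ?_⟩
      by_contra hRP
      have := eq_one_of_commute_fixes h15 hfaith h7 huC hRP hR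
      rw [this, orderOf_one] at hu
      omega
    rw [Equiv.Perm.sign_of_pow_two_eq_one hu2, hfix, ← Nat.card_eq_fintype_card, h15] at hsign
    exact absurd hsign (by decide)
  have hG630 : Nat.card G ∣ 630 := by
    rw [← hcardG, ← hcardN, hC7, show (630 : ℕ) = 7 * 6 * 15 by norm_num]
    exact Nat.mul_dvd_mul_right (Nat.mul_dvd_mul_left 7 hidx) 15
  -- `G` has odd order
  have hodd : ¬ 2 ∣ Nat.card G := by
    rintro ⟨k, hk⟩
    have hk315 : k ∣ 315 := Nat.dvd_of_mul_dvd_mul_left (by norm_num : 0 < 2) (hk ▸ hG630)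
    have hkodd : Odd k := Odd.of_dvd_nat (by decide) hk315
    obtain ⟨u, hu⟩ := exists_prime_orderOf_dvd_card' (G := G) 2 ⟨k, hk⟩
    obtain ⟨M, hM, hMi, huM⟩ := Transfer.exists_index_two_of_forall_notMem (⊥ : Subgroup G)
      (by rw [index_bot, hk]) hkodd (u := u) (by rw [← hu, pow_orderOf_eq_one]) (fun g hg => by
        rw [mem_bot, conj_eq_one_iff] at hg
        rw [hg, orderOf_one] at hu
        omega)
    rcases hM.eq_bot_or_eq_top with e | e
    · rw [e, index_bot] at hMi
      have h3 : 3 ∣ Nat.card G := hcardG ▸ ⟨Nat.card NP * 5, by ring⟩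
      omega
    · exact huM (e ▸ mem_top u)
  obtain ⟨F⟩ := (inferInstance : Nonempty (Sylow 5 G))
  have h5G : 5 ∣ Nat.card G := hcardG ▸ ⟨Nat.card NP * 3, by ring⟩
  have hF5 : Nat.card (F : Subgroup G) = 5 := by
    obtain ⟨j, hj⟩ := IsPGroup.iff_card.mp F.2
    have h5 := F.dvd_card_of_dvd_card h5G
    have hdd := F.1.card_subgroup_dvd_card.trans hG630
    rcases j with _ | _ | j
    · rw [hj] at h5; norm_num at h5
    · simpa using hj
    · have : 25 ∣ 630 := (Dvd.intro (5 ^ j) (by rw [hj, pow_add]; ring)).trans hdd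
      norm_num at this
  obtain ⟨h4, hne⟩ := SmallOrder.relIndex_prime_sylow hnc F hF5
  have hdG : (Subgroup.centralizer ((F : Subgroup G) : Set G)).relIndex
      (Subgroup.normalizer ((F : Subgroup G) : Set G)) ∣ Nat.card G :=
    (relIndex_dvd_card _ _).trans (Subgroup.card_subgroup_dvd_card _)
  have hle := Nat.le_of_dvd (by norm_num) h4
  apply hodd
  interval_cases h : (Subgroup.centralizer ((F : Subgroup G) : Set G)).relIndex
      (Subgroup.normalizer ((F : Subgroup G) : Set G))
  all_goals first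
    | exact absurd rfl hne
    | exact hdG
    | omega
    | exact dvd_trans (by decide) hdG

omit h15 hfaith in
theorem card_sylow_seven_ne_fifteen {G : Type u} [Group G] [Finite G] :
    Nat.card (Sylow 7 G) ≠ 15 := by
  suffices H : ∀ (n : ℕ) (K : Type u) [Group K] [Finite K], Nat.card K = n →
      Nat.card (Sylow 7 K) ≠ 15 from H _ G rfl
  intro n
  induction n using Nat.strong_induction_on with
  | _ n ih =>
    intro K _ _ hn h15
    exact false_of_minimal h15 fun H _ _ hH => ih _ (hn ▸ hH) H rfl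

end Cfsg.Agent.FGS4.Seven
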